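import Cfsg.Agent.Lib.S3Amalgam.Graph
import Cfsg.Agent.S0065

/-!
Trivalent coset graphs of amalgams of index (3, 3) in which one kind of vertex has a central module:
the local lemmas.
-/

set_option autoImplicit false

namespace Cfsg.Agent.Lib.GoldAmalgam

open Subgroup MulAction
open Cfsg.Agent.Lib.S3Amalgam (inv2 TE QV)

/-- The hypotheses on the graph. `isA` marks the vertices with a non-central module. -/
structure Gold (G : Type*) [Group G] (V : Type*) [MulAction G V] where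
  adj : V → V → Prop
  isA : V → Prop
  symm : ∀ {u v}, adj u v → adj v u
  smul : ∀ (g : G) {u v}, adj u v → adj (g • u) (g • v)
  isA_smul : ∀ (g : G) (v : V), isA (g • v) ↔ isA v
  bip : ∀ {u v}, adj u v → (isA v ↔ ¬ isA u)
  exists_adj : ∀ v, ∃ u, adj v u
  third : ∀ v u w, adj v u → adj v w → u ≠ w →
    ∃ x, adj v x ∧ x ≠ u ∧ x ≠ w ∧ ∀ y, adj v y → y = u ∨ y = w ∨ y = x
  other : ∀ v u, adj v u → ∃ w, adj v w ∧ w ≠ u
  gen : ∀ v u w, adj v u → adj v w → u ≠ w → TE (G := G) v u ⊔ TE v w = stabilizer G v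
  trans : ∀ v u w, adj v u → adj v w → ∃ g : G, g • v = v ∧ g • u = w
  atrans : ∀ u v, isA u → isA v → ∃ g : G, g • u = v
  two : ∀ v u, adj v u → ∀ x ∈ TE (G := G) v u, x ∉ QV adj v → ∀ y ∈ TE (G := G) v u, y ∉ QV adj v → x * y ∈ QV adj v
  move : ∀ v u w, adj v u → adj v w → u ≠ w → ∀ x ∈ TE (G := G) v u, x ∉ QV adj v → x • w ≠ w
  fin : ∀ v u, adj v u → Finite (TE (G := G) v u)
  pgroup : ∀ v u, adj v u → IsPGroup 2 (TE (G := G) v u)
  cardT : ∀ v u, adj v u → Nat.card (TE (G := G) v u) = 2 * Nat.card (QV (G := G) adj v)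
  cent : ∀ v, ∀ x ∈ stabilizer G v, (∀ q ∈ QV (G := G) adj v, q * x = x * q) → x ∈ QV adj v
  qne : ∀ u v, adj u v → ∃ x ∈ QV (G := G) adj u, x ∉ QV adj v
  central : ∀ v u, ¬ isA v → adj v u → ∀ x ∈ inv2 (TE (G := G) v u), ∀ g ∈ stabilizer G v, g * x = x * g
  conn : ∀ U : Set V, (∃ v, v ∈ U) → (∀ v ∈ U, ∀ u, adj v u → u ∈ U) → ∀ v, v ∈ U
  faithful : ∀ x : G, (∀ v : V, x • v = v) → x = 1

variable {G : Type*} [Group G] {V : Type*} [MulAction G V]

namespace Gold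

variable (K : Gold G V)

/-- The kernel on the neighbours. -/
abbrev Q (v : V) : Subgroup G := QV K.adj v

/-- The central involutions of a stabiliser. -/
abbrev ZB (_K : Gold G V) (v : V) : Subgroup G := inv2 (stabilizer G v)

/-- The module of a vertex. -/
def ZA (a : V) : Subgroup G := ⨆ w : {w : V // K.adj a w}, K.ZB w.1

variable {K}

theorem bip_A {a v : V} (h : K.adj a v) (ha : K.isA a) : ¬ K.isA v := fun hv => (K.bip h).1 hv ha

theorem bip_B {v a : V} (h : K.adj v a) (hv : ¬ K.isA v) : K.isA a := (K.bip h).2 hv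

theorem ne_of_adj {u v : V} (h : K.adj u v) : u ≠ v := by
  rintro rfl
  exact iff_not_self (K.bip h)

theorem mem_T {u v : V} {x : G} : x ∈ TE u v ↔ x • u = u ∧ x • v = v := Iff.rfl

theorem T_comm {u v : V} {x : G} (h : x ∈ TE u v) : x ∈ TE v u := ⟨h.2, h.1⟩

theorem inv_fix {x : G} {v : V} (h : x • v = v) : x⁻¹ • v = v := inv_smul_eq_iff.2 h.symm

theorem mul_fix {x y : G} {v : V} (h : x • v = v) (h' : y • v = v) : (x * y) • v = v := by
  rw [mul_smul, h', h]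

theorem conj_fix (g : G) {x : G} {v : V} (h : x • v = v) : (g * x * g⁻¹) • (g • v) = g • v := by
  rw [← mul_smul, inv_mul_cancel_right, mul_smul, h]

theorem adj_fix {g : G} {v u : V} (hg : g • v = v) (h : K.adj v u) : K.adj v (g • u) := by
  have := K.smul g h
  rwa [hg] at this

theorem Q_le_T {v u : V} (h : K.adj v u) : K.Q v ≤ TE v u :=
  iInf_le (fun w : {w : V // K.adj v w} => TE (G := G) v w.1) ⟨u, h⟩

theorem Q_fix {v : V} {x : G} (hx : x ∈ K.Q v) : x • v = v := by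
  obtain ⟨u, h⟩ := K.exists_adj v
  exact (Q_le_T h hx).1

theorem Q_fix_adj {v u : V} (h : K.adj v u) {x : G} (hx : x ∈ K.Q v) : x • u = u := (Q_le_T h hx).2

theorem mem_Q_of {v : V} {x : G} (hx : x • v = v) (h : ∀ u, K.adj v u → x • u = u) : x ∈ K.Q v :=
  mem_iInf.2 fun w => ⟨hx, h w.1 w.2⟩

theorem mem_Q_of_fix {v u w : V} (hu : K.adj v u) (hw : K.adj v w) (hne : u ≠ w) {x : G}
    (hv : x • v = v) (h1 : x • u = u) (h2 : x • w = w) : x ∈ K.Q v := by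
  by_contra hx
  exact K.move v u w hu hw hne x ⟨hv, h1⟩ hx h2

theorem two_iff {v u : V} (h : K.adj v u) {x y : G} (hx : x ∈ TE v u) (hy : y ∈ TE v u) :
    x * y ∈ K.Q v ↔ (x ∈ K.Q v ↔ y ∈ K.Q v) := by
  by_cases h1 : x ∈ K.Q v <;> by_cases h2 : y ∈ K.Q v
  · exact iff_of_true (mul_mem h1 h2) (iff_of_true h1 h2)
  · exact iff_of_false (fun e => h2 ((mul_mem_cancel_left h1).1 e)) (fun e => h2 (e.1 h1))
  · exact iff_of_false (fun e => h1 ((mul_mem_cancel_right h2).1 e)) (fun e => h1 (e.2 h2))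
  · exact iff_of_true (K.two v u h x hx h1 y hy h2) (iff_of_false h1 h2)

theorem conj_mem_Q (g : G) {v : V} {x : G} (hx : x ∈ K.Q v) : g * x * g⁻¹ ∈ K.Q (g • v) := by
  refine mem_Q_of (conj_fix g (Q_fix hx)) fun u hu => ?_
  have h1 : K.adj v (g⁻¹ • u) := by
    have := K.smul g⁻¹ hu
    rwa [inv_smul_smul] at this
  have := conj_fix g (Q_fix_adj h1 hx)
  rwa [smul_inv_smul] at this

theorem conj_mem_Q_iff (g : G) {v : V} {x : G} : g * x * g⁻¹ ∈ K.Q (g • v) ↔ x ∈ K.Q v := by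
  refine ⟨fun h => ?_, conj_mem_Q g⟩
  have := conj_mem_Q g⁻¹ h
  rwa [inv_smul_smul, show g⁻¹ * (g * x * g⁻¹) * g⁻¹⁻¹ = x by group] at this

theorem conj_Q_of_fix {g : G} {v : V} (hg : g • v = v) {x : G} (hx : x ∈ K.Q v) : g * x * g⁻¹ ∈ K.Q v := by
  have := conj_mem_Q g hx
  rwa [hg] at this

theorem exists_T_not_Q {v u : V} (h : K.adj v u) : ∃ t ∈ TE (G := G) v u, t ∉ K.Q v := by
  by_contra! hno
  haveI := K.fin v u h
  have he : K.Q v = TE (G := G) v u := le_antisymm (Q_le_T h) hno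
  have := K.cardT v u h
  rw [show QV (G := G) K.adj v = TE (G := G) v u from he] at this
  have := Nat.card_pos (α := TE (G := G) v u)
  omega

theorem swap {v u w c : V} (hu : K.adj v u) (hw : K.adj v w) (hc : K.adj v c) (huw : u ≠ w) (huc : u ≠ c)
    (hwc : w ≠ c) {x : G} (hx : x ∈ TE v u) (hxQ : x ∉ K.Q v) : x • w = c := by
  obtain ⟨d, -, hdu, hdw, hall⟩ := K.third v u w hu hw huw
  have hcd : c = d := by
    rcases hall c hc with e | e | e
    · exact absurd e huc.symm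
    · exact absurd e hwc.symm
    · exact e
  rcases hall _ (adj_fix hx.1 hw) with e | e | e
  · exact absurd (smul_left_cancel x (e.trans hx.2.symm)) huw.symm
  · exact absurd e (K.move v u w hu hw huw x hx hxQ)
  · rw [e, hcd]

theorem nbr_cases {v a b c : V} (ha : K.adj v a) (hb : K.adj v b) (hc : K.adj v c) (hab : a ≠ b) (hac : a ≠ c)
    (hbc : b ≠ c) {y : V} (hy : K.adj v y) : y = a ∨ y = b ∨ y = c := by
  obtain ⟨d, -, hda, hdb, hall⟩ := K.third v a b ha hb hab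
  rcases hall c hc with e | e | e
  · exact absurd e hac.symm
  · exact absurd e hbc.symm
  · subst e; exact hall y hy

theorem le_of_gen {v u : V} (h : K.adj v u) {H : Subgroup G} (hQ : K.Q v ≤ H) {t : G} (ht : t ∈ TE v u)
    (htQ : t ∉ K.Q v) (htH : t ∈ H) : TE (G := G) v u ≤ H := by
  intro y hy
  by_cases hyQ : y ∈ K.Q v
  · exact hQ hyQ
  · have h1 : y * t⁻¹ ∈ K.Q v := K.two v u h y hy hyQ _ (inv_mem ht) (fun e => htQ (inv_mem_iff.1 e))
    have := mul_mem (hQ h1) htH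
    rwa [inv_mul_cancel_right] at this

/-- Two transpositions with different fixed points act transitively. -/
theorem trans_two (H : Subgroup G) {v a c : V} (ha : K.adj v a) (hc : K.adj v c) (hac : a ≠ c) {x y : G}
    (hx : x ∈ TE v a) (hxQ : x ∉ K.Q v) (hxH : x ∈ H) (hy : y ∈ TE v c) (hyQ : y ∉ K.Q v) (hyH : y ∈ H)
    {u w : V} (hu : K.adj v u) (hw : K.adj v w) : ∃ h ∈ H, h • v = v ∧ h • u = w := by
  obtain ⟨d, hd, hda, hdc, hall⟩ := K.third v a c ha hc hac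
  have key : ∀ u, K.adj v u → ∃ h ∈ H, h • v = v ∧ h • u = d := by
    intro u hu
    rcases hall u hu with rfl | rfl | rfl
    · exact ⟨y, hyH, hy.1, swap hc ha hd hac.symm hdc.symm hda.symm hy hyQ⟩
    · exact ⟨x, hxH, hx.1, swap ha hc hd hac hda.symm hdc.symm hx hxQ⟩
    · exact ⟨1, one_mem _, one_smul _ _, one_smul _ _⟩
  obtain ⟨h1, h1H, h1v, h1u⟩ := key u hu
  obtain ⟨h2, h2H, h2v, h2w⟩ := key w hw
  exact ⟨h2⁻¹ * h1, mul_mem (inv_mem h2H) h1H, mul_fix (inv_fix h2v) h1v,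
    by rw [mul_smul, h1u, ← h2w, inv_smul_smul]⟩

/-- The closure lemma: what fixes a set of vertices whose translates under the normaliser cover every
neighbour is trivial. -/
theorem closure' (N : Set G) (S : Set V) (hne : ∃ v, v ∈ S) (hfix : ∀ x ∈ N, ∀ v ∈ S, x • v = v)
    (h : ∀ v ∈ S, ∀ u, K.adj v u → ∃ g : G, (∀ x ∈ N, g * x * g⁻¹ ∈ N) ∧ g • v ∈ S ∧ g • u ∈ S) :
    ∀ x ∈ N, x = 1 := by
  let U : Set V := {v | ∃ g : G, (∀ x ∈ N, g * x * g⁻¹ ∈ N) ∧ g • v ∈ S}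
  have hU : ∀ v, v ∈ U := by
    refine K.conn U (hne.imp fun v hv => ⟨1, fun x hx => by simpa using hx, by rwa [one_smul]⟩) ?_
    rintro v ⟨g, hgN, hgv⟩ u hu
    obtain ⟨k, hkN, -, hku⟩ := h _ hgv _ (K.smul g hu)
    refine ⟨k * g, fun x hx => ?_, by rwa [mul_smul]⟩
    rw [show k * g * x * (k * g)⁻¹ = k * (g * x * g⁻¹) * k⁻¹ by group]
    exact hkN _ (hgN x hx)
  intro x hx
  refine K.faithful x fun v => ?_
  obtain ⟨g, hgN, hgv⟩ := hU v
  have := hfix _ (hgN x hx) _ hgv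
  rw [← mul_smul, inv_mul_cancel_right, mul_smul] at this
  exact smul_left_cancel g this

theorem closure_elem (x : G) (S : Set V) (hne : ∃ v, v ∈ S) (hfix : ∀ v ∈ S, x • v = v)
    (h : ∀ v ∈ S, ∀ u, K.adj v u → ∃ g : G, g * x = x * g ∧ g • v ∈ S ∧ g • u ∈ S) : x = 1 := by
  refine closure' (K := K) {x} S hne (fun y hy => by rw [Set.mem_singleton_iff.1 hy]; exact hfix) (fun v hv u hu => ?_)
    x rfl
  obtain ⟨g, hg, h1, h2⟩ := h v hv u hu
  exact ⟨g, fun y hy => by rw [Set.mem_singleton_iff.1 hy, Set.mem_singleton_iff, hg, mul_inv_cancel_right], h1, h2⟩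

theorem mem_ZB {v : V} {x : G} : x ∈ K.ZB v ↔ x • v = v ∧ x * x = 1 ∧ ∀ g : G, g • v = v → g * x = x * g := Iff.rfl

theorem conj_mem_ZB (g : G) {v : V} {x : G} (hx : x ∈ K.ZB v) : g * x * g⁻¹ ∈ K.ZB (g • v) := by
  refine ⟨conj_fix g hx.1, ?_, fun h hh => ?_⟩
  · rw [show g * x * g⁻¹ * (g * x * g⁻¹) = g * (x * x) * g⁻¹ by group, hx.2.1, mul_one, mul_inv_cancel]
  · have h1 : g⁻¹ * h * g ∈ stabilizer G v := by
      rw [mem_stabilizer_iff, mul_smul, mul_smul, mem_stabilizer_iff.1 hh, inv_smul_smul]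
    calc h * (g * x * g⁻¹) = g * ((g⁻¹ * h * g) * x) * g⁻¹ := by group
      _ = g * (x * (g⁻¹ * h * g)) * g⁻¹ := by rw [hx.2.2 _ h1]
      _ = g * x * g⁻¹ * h := by group

theorem conj_ZB_of_fix {g : G} {v : V} (hg : g • v = v) {x : G} (hx : x ∈ K.ZB v) : g * x * g⁻¹ = x := by
  rw [hx.2.2 g hg, mul_inv_cancel_right]

theorem ZB_fix_adj {v u : V} (h : K.adj v u) {x : G} (hx : x ∈ K.ZB v) : x • u = u := by
  by_contra hxu
  obtain ⟨t, ht, htQ⟩ := exists_T_not_Q h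
  refine K.move v u (x • u) h (adj_fix hx.1 h) (Ne.symm hxu) t ht htQ ?_
  rw [← mul_smul, hx.2.2 t ht.1, mul_smul, ht.2]

theorem ZB_mem_inv2 {v u : V} (h : K.adj v u) {x : G} (hx : x ∈ K.ZB v) : x ∈ inv2 (TE v u) :=
  ⟨⟨hx.1, ZB_fix_adj h hx⟩, hx.2.1, fun t ht => hx.2.2 t ht.1⟩

theorem inv2_T {v u : V} (hv : ¬ K.isA v) (h : K.adj v u) {x : G} (hx : x ∈ inv2 (TE v u)) : x ∈ K.ZB v :=
  ⟨hx.1.1, hx.2.1, K.central v u hv h x hx⟩

theorem ZB_le_Q {v : V} {x : G} (hx : x ∈ K.ZB v) : x ∈ K.Q v := K.cent v x hx.1 fun q hq => hx.2.2 q (Q_fix hq)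

theorem ZB_le_Q_adj {v a : V} (h : K.adj v a) {x : G} (hx : x ∈ K.ZB v) : x ∈ K.Q a :=
  K.cent a x (ZB_fix_adj h hx) fun _ hq => hx.2.2 _ (Q_fix_adj (K.symm h) hq)

theorem ZB_inv {v : V} {x : G} (hx : x ∈ K.ZB v) : x⁻¹ = x := inv_eq_of_mul_eq_one_right hx.2.1

theorem ZA_no_center {a : V} (ha : K.isA a) {x : G} (hx : x ∈ K.ZB a) : x = 1 := by
  obtain ⟨v, hv⟩ := K.exists_adj a
  have hxv : x ∈ K.ZB v := inv2_T (bip_A hv ha) (K.symm hv)
    ⟨T_comm (ZB_mem_inv2 hv hx).1, hx.2.1, fun t ht => (ZB_mem_inv2 hv hx).2.2 t (T_comm ht)⟩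
  refine closure_elem (K := K) x {a, v} ⟨a, Or.inl rfl⟩ ?_ ?_
  · rintro y (rfl | rfl)
    · exact hx.1
    · exact hxv.1
  · rintro y (rfl | rfl) u hu
    · obtain ⟨g, hg, hgu⟩ := K.trans y u v hu hv
      exact ⟨g, hx.2.2 g hg, Or.inl hg, Or.inr hgu⟩
    · obtain ⟨g, hg, hgu⟩ := K.trans y u a hu (K.symm hv)
      exact ⟨g, hxv.2.2 g hg, Or.inr hg, Or.inl hgu⟩

theorem ZB_inter {a v w : V} (hv : K.adj a v) (hw : K.adj a w) (hne : v ≠ w) {x : G} (h1 : x ∈ K.ZB v)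
    (h2 : x ∈ K.ZB w) : x = 1 := by
  refine closure_elem (K := K) x {v, a, w} ⟨v, Or.inl rfl⟩ ?_ ?_
  · rintro y (rfl | rfl | rfl)
    · exact h1.1
    · exact ZB_fix_adj (K.symm hv) h1
    · exact h2.1
  · rintro y (rfl | rfl | rfl) u hu
    · obtain ⟨g, hg, hgu⟩ := K.trans y u a hu (K.symm hv)
      exact ⟨g, h1.2.2 g hg, Or.inl hg, Or.inr (Or.inl hgu)⟩
    · obtain ⟨c, hc, hcv, hcw, hall⟩ := K.third y v w hv hw hne
      rcases hall u hu with rfl | rfl | rfl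
      · exact ⟨1, by rw [one_mul, mul_one], by rw [one_smul]; exact Or.inr (Or.inl rfl),
          by rw [one_smul]; exact Or.inl rfl⟩
      · exact ⟨1, by rw [one_mul, mul_one], by rw [one_smul]; exact Or.inr (Or.inl rfl),
          by rw [one_smul]; exact Or.inr (Or.inr rfl)⟩
      · obtain ⟨t, ht, htQ⟩ := exists_T_not_Q hv
        exact ⟨t, h1.2.2 t ht.2, Or.inr (Or.inl ht.1),
          Or.inr (Or.inr (swap hv hc hw hcv.symm hne hcw ht htQ))⟩
    · obtain ⟨g, hg, hgu⟩ := K.trans y u a hu (K.symm hw)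
      exact ⟨g, h2.2.2 g hg, Or.inr (Or.inr hg), Or.inr (Or.inl hgu)⟩

theorem btrans {v w : V} (hv : ¬ K.isA v) (hw : ¬ K.isA w) : ∃ g : G, g • v = w := by
  obtain ⟨a, ha⟩ := K.exists_adj v
  obtain ⟨c, hc⟩ := K.exists_adj w
  obtain ⟨g, hg⟩ := K.atrans a c (bip_B ha hv) (bip_B hc hw)
  have h1 : K.adj c (g • v) := by
    have := K.smul g (K.symm ha)
    rwa [hg] at this
  obtain ⟨k, -, hk⟩ := K.trans c (g • v) w h1 (K.symm hc)
  exact ⟨k * g, by rw [mul_smul, hk]⟩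

theorem ZB_ne_one {v : V} (hv : ¬ K.isA v) : ∃ x ∈ K.ZB v, x ≠ 1 := by
  obtain ⟨u, h⟩ := K.exists_adj v
  haveI := Fact.mk Nat.prime_two
  haveI := K.fin v u h
  obtain ⟨t, ht, htQ⟩ := exists_T_not_Q h
  haveI : Nontrivial (TE (G := G) v u) := ⟨⟨t, ht⟩, 1, fun e => htQ (by
    have h1 := congrArg Subtype.val e
    simp only [OneMemClass.coe_one] at h1
    rw [h1]; exact one_mem _)⟩
  haveI := (K.pgroup v u h).center_nontrivial
  obtain ⟨n, hn⟩ := ((K.pgroup v u h).to_subgroup (Subgroup.center (TE (G := G) v u))).exists_card_eq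
  have h2 : 2 ∣ Nat.card (Subgroup.center (TE (G := G) v u)) := by
    rcases Nat.eq_zero_or_pos n with rfl | hn0
    · have := Finite.one_lt_card (α := Subgroup.center (TE (G := G) v u))
      rw [hn] at this; simp at this
    · rw [hn]; exact dvd_pow_self 2 (by omega)
  obtain ⟨z, hz⟩ := exists_prime_orderOf_dvd_card' 2 h2
  refine ⟨((z : TE (G := G) v u) : G), inv2_T hv h ⟨(z : TE (G := G) v u).2, ?_, fun g hg => ?_⟩, fun e => ?_⟩
  · have : z ^ 2 = 1 := hz ▸ pow_orderOf_eq_one z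
    rw [pow_two] at this
    exact congrArg (fun y : Subgroup.center (TE (G := G) v u) => ((y : TE (G := G) v u) : G)) this
  · exact congrArg Subtype.val (Subgroup.mem_center_iff.1 z.2 ⟨g, hg⟩)
  · have : z = 1 := Subtype.ext (Subtype.ext e)
    rw [this, orderOf_one] at hz
    omega

theorem ZB_finite (K : Gold G V) (v : V) : Finite (K.ZB v) := by
  obtain ⟨u, h⟩ := K.exists_adj v
  haveI := K.fin v u h
  exact Finite.Set.subset (TE (G := G) v u : Set G) fun x hx => (ZB_mem_inv2 h hx).1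

theorem ZB_card {v w : V} (hv : ¬ K.isA v) (hw : ¬ K.isA w) : Nat.card (K.ZB v) = Nat.card (K.ZB w) := by
  obtain ⟨g, rfl⟩ := btrans hv hw
  refine Nat.card_congr ⟨fun x => ⟨g * x * g⁻¹, conj_mem_ZB g x.2⟩, fun y => ⟨g⁻¹ * y * g, ?_⟩, ?_, ?_⟩
  · have := conj_mem_ZB g⁻¹ y.2
    rwa [inv_smul_smul, inv_inv] at this
  · intro x; ext; simp [mul_assoc]
  · intro x; ext; simp [mul_assoc]

theorem ZB_le_ZA {a v : V} (h : K.adj a v) : K.ZB v ≤ K.ZA a :=
  le_iSup (fun w : {w : V // K.adj a w} => K.ZB w.1) ⟨v, h⟩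

theorem ZA_le_inv2 (a : V) : K.ZA a ≤ inv2 (K.Q a) :=
  iSup_le fun w _ hx => ⟨ZB_le_Q_adj (K.symm w.2) hx, hx.2.1, fun _ hq => hx.2.2 _ (Q_fix_adj w.2 hq)⟩

theorem ZA_le_Q {a : V} {x : G} (hx : x ∈ K.ZA a) : x ∈ K.Q a := (ZA_le_inv2 a hx).1

theorem ZA_sq {a : V} {x : G} (hx : x ∈ K.ZA a) : x * x = 1 := (ZA_le_inv2 a hx).2.1

theorem ZA_inv {a : V} {x : G} (hx : x ∈ K.ZA a) : x⁻¹ = x := inv_eq_of_mul_eq_one_right (ZA_sq hx)

theorem Q_comm_ZA {a : V} {q x : G} (hq : q ∈ K.Q a) (hx : x ∈ K.ZA a) : q * x = x * q :=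
  (ZA_le_inv2 a hx).2.2 q hq

theorem conj_mem_ZA (g : G) {a : V} {x : G} (hx : x ∈ K.ZA a) : g * x * g⁻¹ ∈ K.ZA (g • a) := by
  have hle : K.ZA a ≤ (K.ZA (g • a)).comap (MulAut.conj g).toMonoidHom := iSup_le fun w y hy =>
    ZB_le_ZA (K.smul g w.2) (conj_mem_ZB g hy)
  exact hle hx

theorem conj_ZA_of_fix {g : G} {a : V} (hg : g • a = a) {x : G} (hx : x ∈ K.ZA a) : g * x * g⁻¹ ∈ K.ZA a := by
  have := conj_mem_ZA g hx
  rwa [hg] at this

theorem phi {a v : V} (ha : K.isA a) (h : K.adj a v) {t y : G} (ht : t ∈ TE a v) (hy : y ∈ K.ZA a) :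
    y * (t * y * t⁻¹) ∈ K.ZB v := by
  have hty : t * y * t⁻¹ ∈ K.ZA a := conj_ZA_of_fix ht.1 hy
  set z := t * y * t⁻¹ with hz
  have hyz : y * z ∈ K.ZA a := mul_mem hy hty
  by_cases htQ : t ∈ K.Q a
  · have hzy : z = y := by rw [hz, Q_comm_ZA htQ hy, mul_inv_cancel_right]
    rw [hzy, ZA_sq hy]
    exact one_mem _
  refine inv2_T (bip_A h ha) (K.symm h) ⟨T_comm (Q_le_T h (ZA_le_Q hyz)), ZA_sq hyz, fun w hw => ?_⟩
  have hback : t * z * t⁻¹ = y := by
    have h1 := Q_comm_ZA ((two_iff h ht ht).2 Iff.rfl) hy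
    calc t * z * t⁻¹ = (t * t) * y * (t * t)⁻¹ := by rw [hz]; group
      _ = y := by rw [h1, mul_inv_cancel_right]
  have htc : t * (y * z) = y * z * t := by
    calc t * (y * z) = (t * y * t⁻¹) * (t * z * t⁻¹) * t := by group
      _ = z * y * t := by rw [hback, ← hz]
      _ = y * z * t := by rw [Q_comm_ZA (ZA_le_Q hty) hy]
  have hle : TE (G := G) a v ≤ centralizer ({y * z} : Set G) :=
    le_of_gen h (fun q hq => mem_centralizer_singleton_iff.2 (Q_comm_ZA hq hyz)) ht htQ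
      (mem_centralizer_singleton_iff.2 htc)
  exact mem_centralizer_singleton_iff.1 (hle (T_comm hw))

theorem fixed_ZA {a v : V} (ha : K.isA a) (h : K.adj a v) {t y : G} (ht : t ∈ TE a v) (htQ : t ∉ K.Q a)
    (hy : y ∈ K.ZA a) (hc : t * y = y * t) : y ∈ K.ZB v := by
  refine inv2_T (bip_A h ha) (K.symm h) ⟨T_comm (Q_le_T h (ZA_le_Q hy)), ZA_sq hy, fun w hw => ?_⟩
  have hle : TE (G := G) a v ≤ centralizer ({y} : Set G) :=
    le_of_gen h (fun q hq => mem_centralizer_singleton_iff.2 (Q_comm_ZA hq hy)) ht htQ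
      (mem_centralizer_singleton_iff.2 hc)
  exact mem_centralizer_singleton_iff.1 (hle (T_comm hw))

theorem mem_ZA {a v w : V} (ha : K.isA a) (hv : K.adj a v) (hw : K.adj a w) (hne : v ≠ w) {x : G}
    (hx : x ∈ K.ZA a) : ∃ y ∈ K.ZB v, ∃ z ∈ K.ZB w, x = y * z := by
  obtain ⟨c, hc, hcv, hcw, hall⟩ := K.third a v w hv hw hne
  let P : Subgroup G :=
    { carrier := {x | ∃ y ∈ K.ZB v, ∃ z ∈ K.ZB w, x = y * z}
      one_mem' := ⟨1, one_mem _, 1, one_mem _, (one_mul 1).symm⟩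
      mul_mem' := by
        rintro _ _ ⟨y, hy, z, hz, rfl⟩ ⟨y', hy', z', hz', rfl⟩
        refine ⟨y * y', mul_mem hy hy', z * z', mul_mem hz hz', ?_⟩
        have e : y' * z = z * y' := Q_comm_ZA (ZA_le_Q (ZB_le_ZA hv hy')) (ZB_le_ZA hw hz)
        rw [show y * y' * (z * z') = y * (y' * z) * z' by group, e]
        group
      inv_mem' := by
        rintro _ ⟨y, hy, z, hz, rfl⟩
        refine ⟨y⁻¹, inv_mem hy, z⁻¹, inv_mem hz, ?_⟩
        have e : y * z = z * y := Q_comm_ZA (ZA_le_Q (ZB_le_ZA hv hy)) (ZB_le_ZA hw hz)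
        rw [e, mul_inv_rev] }
  have hle : K.ZA a ≤ P := by
    refine iSup_le fun u x hx => ?_
    rcases hall u.1 u.2 with e | e | e
    · rw [e] at hx
      exact ⟨x, hx, 1, one_mem _, (mul_one x).symm⟩
    · rw [e] at hx
      exact ⟨1, one_mem _, x, hx, (one_mul x).symm⟩
    · rw [e] at hx
      obtain ⟨t, ht, htQ⟩ := exists_T_not_Q hv
      have htw : t • c = w := swap hv hc hw hcv.symm hne hcw ht htQ
      have h2 := conj_mem_ZB t hx
      rw [htw] at h2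
      have h3 := phi ha hv ht (ZB_le_ZA hc hx)
      refine ⟨x * (t * x * t⁻¹), h3, (t * x * t⁻¹), h2, ?_⟩
      have h4 := ZA_sq (ZB_le_ZA hw h2)
      rw [mul_assoc, h4, mul_one]
  exact hle hx

theorem faith {a : V} (ha : K.isA a) {x : G} (hx : x • a = a) (hc : ∀ z ∈ K.ZA a, x * z = z * x) : x ∈ K.Q a := by
  refine mem_Q_of hx fun v hv => ?_
  by_contra hne
  obtain ⟨y, hy, hy1⟩ := ZB_ne_one (bip_A hv ha)
  refine hy1 (ZB_inter (adj_fix hx hv) hv hne ?_ hy)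
  have := conj_mem_ZB x hy
  rwa [hc y (ZB_le_ZA hv hy), mul_inv_cancel_right] at this

theorem ZA_inter {v a a' : V} (hv : ¬ K.isA v) (ha : K.adj v a) (ha' : K.adj v a') (hne : a ≠ a') {x : G}
    (h1 : x ∈ K.ZA a) (h2 : x ∈ K.ZA a') : x ∈ K.ZB v := by
  have hA := bip_B ha hv
  obtain ⟨w, hw, hwv⟩ := K.other a v (K.symm ha)
  obtain ⟨y, hy, z, hz, rfl⟩ := mem_ZA hA (K.symm ha) hw hwv.symm h1
  obtain ⟨q, hq, hqv⟩ := K.qne a v (K.symm ha)
  obtain ⟨q', hq', hqv'⟩ := K.qne a' v (K.symm ha')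
  have hC : ∀ p : G, p • v = v → p * (y * z) = (y * z) * p → p * z = z * p := fun p hp e => by
    have e2 : y * (p * z) = y * (z * p) := by rw [← mul_assoc, ← hy.2.2 p hp, mul_assoc, e, mul_assoc]
    exact mul_left_cancel e2
  have hcq : q * z = z * q := hC q (Q_fix_adj (K.symm ha) hq) (Q_comm_ZA hq h1)
  have hcq' : q' * z = z * q' := hC q' (Q_fix_adj (K.symm ha') hq') (Q_comm_ZA hq' h2)
  have hz1 : z = 1 := by
    refine closure_elem (K := K) z {v, a, w} ⟨v, Or.inl rfl⟩ ?_ ?_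
    · rintro u (rfl | rfl | rfl)
      · exact Q_fix_adj (K.symm ha) (ZB_le_Q_adj (K.symm hw) hz)
      · exact Q_fix (ZB_le_Q_adj (K.symm hw) hz)
      · exact hz.1
    · rintro p (rfl | rfl | rfl) u hu
      · obtain ⟨g, hgH, hg, hgu⟩ := trans_two (centralizer ({z} : Set G)) ha ha' hne
          (T_comm (Q_le_T (K.symm ha) hq)) hqv (mem_centralizer_singleton_iff.2 hcq)
          (T_comm (Q_le_T (K.symm ha') hq')) hqv' (mem_centralizer_singleton_iff.2 hcq') hu ha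
        exact ⟨g, mem_centralizer_singleton_iff.1 hgH, Or.inl hg, Or.inr (Or.inl hgu)⟩
      · obtain ⟨c, hc, hcv, hcw, hall⟩ := K.third p v w (K.symm ha) hw hwv.symm
        rcases hall u hu with rfl | rfl | rfl
        · exact ⟨1, by rw [one_mul, mul_one], by rw [one_smul]; exact Or.inr (Or.inl rfl),
            by rw [one_smul]; exact Or.inl rfl⟩
        · exact ⟨1, by rw [one_mul, mul_one], by rw [one_smul]; exact Or.inr (Or.inl rfl),
            by rw [one_smul]; exact Or.inr (Or.inr rfl)⟩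
        · obtain ⟨t, ht, htQ⟩ := exists_T_not_Q hw
          exact ⟨t, hz.2.2 t ht.2, Or.inr (Or.inl ht.1),
            Or.inl (swap hw hc (K.symm ha) hcw.symm hwv hcv ht htQ)⟩
      · obtain ⟨g, hg, hgu⟩ := K.trans p u a hu (K.symm hw)
        exact ⟨g, hz.2.2 g hg, Or.inr (Or.inr hg), Or.inr (Or.inl hgu)⟩
  rw [hz1, mul_one]
  exact hy

/-- A nontrivial subgroup normal in an edge group meets the central involutions. -/
theorem normal_meets {v u : V} (h : K.adj v u) (hv : ¬ K.isA v) {X : Subgroup G} (hX : X ≤ TE v u)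
    (hn : ∀ g ∈ TE (G := G) v u, ∀ x ∈ X, g * x * g⁻¹ ∈ X) (hne : X ≠ ⊥) : ∃ z ∈ X, z ∈ K.ZB v ∧ z ≠ 1 := by
  haveI := Fact.mk Nat.prime_two
  haveI := K.fin v u h
  haveI := (K.pgroup v u h).isNilpotent
  set N := X.subgroupOf (TE v u) with hN
  have hNn : N.Normal := ⟨fun x hx g => mem_subgroupOf.2 (hn _ g.2 _ (mem_subgroupOf.1 hx))⟩
  have hN1 : N ≠ ⊥ := fun e => hne (by
    rw [eq_bot_iff]
    intro x hx
    have h1 : (⟨x, hX hx⟩ : TE (G := G) v u) ∈ N := mem_subgroupOf.2 hx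
    rw [e, mem_bot] at h1
    exact mem_bot.2 (congrArg Subtype.val h1))
  set P := N ⊓ Subgroup.center (TE (G := G) v u) with hP
  have hP1 : P ≠ ⊥ := Cfsg.Agent.S0065.inf_center_ne_bot hNn hN1
  obtain ⟨n, hn'⟩ := ((K.pgroup v u h).to_subgroup P).exists_card_eq
  have h2 : 2 ∣ Nat.card P := by
    rcases Nat.eq_zero_or_pos n with rfl | hn0
    · exact absurd (Subgroup.card_eq_one.1 (by simpa using hn')) hP1
    · rw [hn']; exact dvd_pow_self 2 (by omega)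
  obtain ⟨z, hz⟩ := exists_prime_orderOf_dvd_card' 2 h2
  obtain ⟨hzN, hzc⟩ := Subgroup.mem_inf.1 z.2
  refine ⟨((z : TE (G := G) v u) : G), mem_subgroupOf.1 hzN,
    inv2_T hv h ⟨(z : TE (G := G) v u).2, ?_, fun g hg => ?_⟩, fun e => ?_⟩
  · have : z ^ 2 = 1 := hz ▸ pow_orderOf_eq_one z
    rw [pow_two] at this
    exact congrArg (fun y : P => ((y : TE (G := G) v u) : G)) this
  · exact congrArg Subtype.val (Subgroup.mem_center_iff.1 hzc ⟨g, hg⟩)
  · have : z = 1 := Subtype.ext (Subtype.ext e)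
    rw [this, orderOf_one] at hz
    omega

theorem T_finite_le {v u : V} (h : K.adj v u) {H : Subgroup G} (hH : H ≤ TE v u) : Finite H := by
  haveI := K.fin v u h
  exact Finite.Set.subset (TE (G := G) v u : Set G) hH

theorem half {v u : V} (h : K.adj v u) {H : Subgroup G} (hH : H ≤ TE v u) : (K.Q v).relIndex H ≤ 2 := by
  haveI := K.fin v u h
  have h1 : Nat.card (K.Q v) * (K.Q v).relIndex (TE v u) = Nat.card (TE (G := G) v u) := by
    rw [← relIndex_bot_left, ← relIndex_bot_left, relIndex_mul_relIndex _ _ _ bot_le (Q_le_T h)]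
  rw [K.cardT v u h, mul_comm 2] at h1
  haveI := T_finite_le h (Q_le_T h)
  have h2 : (K.Q v).relIndex (TE v u) = 2 := Nat.eq_of_mul_eq_mul_left Nat.card_pos h1
  exact (relIndex_le_of_le_right hH (by omega)).trans h2.le

theorem Q_card_eq {v u : V} (h : K.adj v u) : Nat.card (K.Q v) = Nat.card (K.Q u) := by
  have h1 := K.cardT v u h
  have h2 := K.cardT u v (K.symm h)
  rw [show TE (G := G) u v = TE v u from inf_comm _ _] at h2
  have h3 : QV (G := G) K.adj v = K.Q v := rfl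
  have h4 : QV (G := G) K.adj u = K.Q u := rfl
  rw [h3] at h1
  rw [h4] at h2
  omega

theorem index_two_sub {P H : Subgroup G} (hdiff : ∀ x ∈ H, ∀ y ∈ H, x ∉ P → y ∉ P → x * y ∈ P) :
    P.relIndex H ≤ 2 := by
  by_cases hle : H ≤ P
  · rw [relIndex_eq_one.2 hle]; omega
  · obtain ⟨a, ha, haP⟩ := SetLike.not_le_iff_exists.1 hle
    refine le_of_eq (relIndex_eq_two_iff.2 ⟨a, ha, fun b hb => ?_⟩)
    by_cases hbP : b ∈ P
    · exact Or.inr ⟨hbP, fun e => haP ((mul_mem_cancel_left hbP).1 e)⟩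
    · exact Or.inl ⟨hdiff b hb a ha hbP haP, hbP⟩

end Gold

end Cfsg.Agent.Lib.GoldAmalgam
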