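import Cfsg.Agent.Lib.GoldAmalgam.Walk

/-!
An even critical distance is at most two.
-/

set_option autoImplicit false

namespace Cfsg.Agent.Lib.GoldAmalgam

open Subgroup MulAction
open Cfsg.Agent.Lib.S3Amalgam (inv2 TE QV)

variable {G : Type*} [Group G] {V : Type*} [MulAction G V]

namespace Gold

variable {K : Gold G V}

theorem ZB_eq {b : ℕ} (hK : K.Below b) (hb : Even b) (hb4 : 4 ≤ b) {q : ℕ → V} (hq : K.Crit q b) :
    K.ZB (q 1) = K.ZB (q (b - 1)) := by
  obtain ⟨u, hu, huQ, hufix, -⟩ := crit_elem hK (Gold.walk_rev hq.1 |> fun hw =>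
    (show K.Crit (fun i => q (b - i)) b from by
      have hA : K.isA (q b) := (isA_of hq.1 hq.2.1 le_rfl).2 hb
      refine ⟨hw, by simpa using hA, fun h => hq.2.2 fun z hz => ?_⟩
      have h' : K.ZA (q b) ≤ K.Q (q 0) := by simpa using h
      exact faith hA (fix_below hK hq.1 hq.2.1 le_rfl hz) fun y hy => (Q_comm_ZA (h' hy) hz).symm))
  simp only [Nat.sub_zero, Nat.sub_self] at hu huQ
  have h01 : K.adj (q 0) (q 1) := hq.1 0 (by omega)
  have huT : u ∈ TE (q 0) (q 1) := ⟨by simpa using hufix b le_rfl, by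
    simpa [show b - (b - 1) = 1 by omega] using hufix (b - 1) (by omega)⟩
  have hlast : K.adj (q (b - 1)) (q b) := by
    have := hq.1 (b - 1) (by omega)
    rwa [show b - 1 + 1 = b by omega] at this
  have hA : K.isA (q 0) := hq.2.1
  have hAb : K.isA (q b) := (isA_of hq.1 hA le_rfl).2 hb
  obtain ⟨w, hw, hw1⟩ := K.other (q 0) (q 1) h01
  haveI := ZB_finite K (q 1)
  haveI := ZB_finite K (q (b - 1))
  have hval : ∀ y ∈ K.ZB w, y * (u * y * u⁻¹) ∈ K.ZB (q 1) ⊓ K.ZB (q (b - 1)) := by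
    intro y hy
    have hyA := ZB_le_ZA hw hy
    refine ⟨phi hA h01 huT hyA, ?_⟩
    have hyT : y ∈ TE (q b) (q (b - 1)) := ⟨fix_below hK hq.1 hA le_rfl hyA,
      fix_below hK (walk_mono hq.1 (by omega)) hA (by omega) hyA⟩
    have h := inv_mem (phi hAb (K.symm hlast) hyT hu)
    have : y * (u * y * u⁻¹) = (u * (y * u * y⁻¹))⁻¹ := by
      rw [mul_inv_rev, mul_inv_rev, mul_inv_rev, inv_inv, ZA_inv hyA, ZA_inv hu]
      group
    rwa [this]
  let f : K.ZB w → (K.ZB (q 1) ⊓ K.ZB (q (b - 1)) : Subgroup G) := fun y => ⟨_, hval y y.2⟩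
  have hf : Function.Injective f := by
    intro y₁ y₂ e
    have e' : (y₁ : G) * (u * y₁ * u⁻¹) = y₂ * (u * y₂ * u⁻¹) := congrArg Subtype.val e
    have h1 := ZB_le_ZA hw y₁.2
    have h2 := ZB_le_ZA hw y₂.2
    have h3 := conj_ZA_of_fix huT.1 h1
    have hfix : u * ((y₁ : G) * y₂) = (y₁ * y₂) * u := by
      have e2 : u * ((y₁ : G) * y₂) * u⁻¹ = y₁ * y₂ := by
        calc u * ((y₁ : G) * y₂) * u⁻¹ = (u * y₁ * u⁻¹) * (u * y₂ * u⁻¹) := by group
          _ = (y₁ : G)⁻¹ * (y₁ * (u * y₁ * u⁻¹)) * (u * y₂ * u⁻¹) := by group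
          _ = (y₁ : G) * y₂ * ((u * y₂ * u⁻¹) * (u * y₂ * u⁻¹)) := by rw [e', ZA_inv h1]; group
          _ = y₁ * y₂ := by rw [ZA_sq (conj_ZA_of_fix huT.1 h2), mul_one]
      calc u * ((y₁ : G) * y₂) = (u * (y₁ * y₂) * u⁻¹) * u := by group
        _ = (y₁ * y₂) * u := by rw [e2]
    have h4 := fixed_ZA hA h01 huT huQ (mul_mem h1 h2) hfix
    have h5 := ZB_inter hw h01 hw1 (mul_mem y₁.2 y₂.2) h4
    refine Subtype.ext ?_
    rw [eq_inv_of_mul_eq_one_left h5, ZA_inv h2]
  have hB1 : ¬ K.isA (q 1) := bip_A h01 hA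
  have hBl : ¬ K.isA (q (b - 1)) := bip_A (K.symm hlast) hAb
  have hBw : ¬ K.isA w := bip_A hw hA
  haveI : Finite (K.ZB (q 1) ⊓ K.ZB (q (b - 1)) : Subgroup G) :=
    Finite.Set.subset (K.ZB (q 1) : Set G) inf_le_left
  have hle := Nat.card_le_card_of_injective f hf
  have e1 : K.ZB (q 1) ⊓ K.ZB (q (b - 1)) = K.ZB (q 1) :=
    eq_of_le_of_card_ge inf_le_left (by rw [← ZB_card hBw hB1]; exact hle)
  have e2 : K.ZB (q 1) ⊓ K.ZB (q (b - 1)) = K.ZB (q (b - 1)) :=
    eq_of_le_of_card_ge inf_le_right (by rw [← ZB_card hBw hBl]; exact hle)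
  exact e1.symm.trans e2

theorem no_even {b : ℕ} (hK : K.Below b) (hb : Even b) (hb4 : 4 ≤ b) {p : ℕ → V} (hp : K.Crit p b) : False := by
  have hA : K.isA (p 0) := hp.2.1
  have hnb := crit_nb hK hp
  have hAb : K.isA (p b) := (isA_of hp.1 hA le_rfl).2 hb
  have hrev : K.Crit (fun i => p (b - i)) b := by
    refine ⟨walk_rev hp.1, by simpa using hAb, fun h => hp.2.2 fun z hz => ?_⟩
    have h' : K.ZA (p b) ≤ K.Q (p 0) := by simpa using h
    exact faith hAb (fix_below hK hp.1 hA le_rfl hz) fun y hy => (Q_comm_ZA (h' hy) hz).symm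
  obtain ⟨z, hz, hzQ, hzfix, hzmove⟩ := crit_elem hK hp
  obtain ⟨u, hu, huQ, hufix, humove⟩ := crit_elem hK hrev
  simp only [Nat.sub_zero, Nat.sub_self] at hu huQ humove
  rw [show b - (b - 1) = 1 by omega] at humove
  have h01 : K.adj (p 0) (p 1) := hp.1 0 (by omega)
  have hu0 : u • p 0 = p 0 := by simpa using hufix b le_rfl
  have hu1 : u • p 1 = p 1 := by simpa [show b - (b - 1) = 1 by omega] using hufix (b - 1) (by omega)
  -- no shift backwards
  have noback : ∀ w, K.adj (p 0) w → w ≠ p 1 → ∀ y, K.adj w y → ¬ K.Crit (cons y (cons w p)) b := by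
    intro w hw hw1 y hy hc
    obtain ⟨n, hn⟩ : ∃ n, b = n + 4 := ⟨b - 4, by omega⟩
    have e := ZB_eq hK hb hb4 hc
    rw [show b - 1 = n + 1 + 1 + 1 by omega] at e
    simp only [cons_succ, cons_zero] at e
    obtain ⟨c, hc1, hc2⟩ := ZB_ne_one (bip_A hw hA)
    have hcl : c ∈ K.ZB (p (n + 1)) := e.le hc1
    have hA2 : K.isA (p (n + 2)) := (isA_of hp.1 hA (by omega)).2 (by
      have : n + 2 = b - 2 := by omega
      rw [this]; exact (Nat.even_sub (by omega)).2 (iff_of_true hb (by decide)))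
    have hadj : K.adj (p (n + 2)) (p (n + 1)) := K.symm (hp.1 (n + 1) (by omega))
    have huQ2 : u ∈ K.Q (p (n + 2)) := by
      have := hK 2 (by omega) (fun i => p (b - i)) (walk_mono (walk_rev hp.1) (by omega)) (by simpa using hAb)
        (by simpa using hu)
      simpa [show b - 2 = n + 2 by omega] using this
    have hcu : u * c * u⁻¹ = c := by
      rw [Q_comm_ZA huQ2 (ZB_le_ZA hadj hcl), mul_inv_cancel_right]
    refine hc2 (ZB_inter hw (adj_fix hu0 hw) (Ne.symm (humove w hw hw1)) hc1 ?_)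
    have := conj_mem_ZB u hc1
    rwa [hcu] at this
  obtain ⟨w, hw, hw1⟩ := K.other (p 0) (p 1) h01
  have hBw := bip_A hw hA
  have hwalk : ∀ y, K.adj w y → ∀ n ≤ b, K.Walk (cons y (cons w p)) (n + 2) := fun y hy n hn =>
    walk_cons (K.symm hy) (walk_cons (K.symm hw) (walk_mono hp.1 hn))
  have hyA : ∀ y, K.adj w y → K.isA y := fun y hy => bip_B hy hBw
  have hfix : ∀ y, K.adj w y → ∀ x ∈ K.ZA y, ∀ j ≤ b - 2, x • p j = p j := fun y hy x hx j hj => by
    have := fix_below hK (n := j + 2) (hwalk y hy j (by omega)) (hyA y hy) (by omega) hx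
    simpa using this
  have hQ2 : ∀ y, K.adj w y → K.ZA y ≤ K.Q (p (b - 2)) := by
    intro y hy
    by_contra h
    refine noback w hw hw1 y hy ⟨?_, hyA y hy, ?_⟩
    · have := hwalk y hy (b - 2) (by omega)
      rwa [show b - 2 + 2 = b by omega] at this
    · simp only [cons_zero]
      obtain ⟨n, hn⟩ : ∃ n, b = n + 2 := ⟨b - 2, by omega⟩
      subst hn
      simpa using h
  have hlast : K.adj (p (b - 1)) (p b) := by
    have := hp.1 (b - 1) (by omega)
    rwa [show b - 1 + 1 = b by omega] at this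
  have h21 : K.adj (p (b - 2)) (p (b - 1)) := by
    have := hp.1 (b - 2) (by omega)
    rwa [show b - 2 + 1 = b - 1 by omega] at this
  by_cases hall : ∀ y, K.adj w y → K.ZA y ≤ K.Q (p (b - 1))
  · -- the join of the modules around `w` is normal at both ends
    set W := ⨆ y : {y : V // K.adj w y}, K.ZA y.1 with hW
    have hle : ∀ {y}, K.adj w y → K.ZA y ≤ W := fun {y} hy =>
      le_iSup (fun y : {y : V // K.adj w y} => K.ZA y.1) ⟨y, hy⟩
    have hWT : W ≤ TE w (p 0) := iSup_le fun y x hx => by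
      have := hK 1 (by omega) (cons y.1 fun _ => w)
        (walk_cons (K.symm y.2) (fun i hi => absurd hi (Nat.not_lt_zero i))) (hyA _ y.2) (by simpa using hx)
      simp only [cons_succ] at this
      exact ⟨Q_fix this, Q_fix_adj (K.symm hw) this⟩
    have hwW : ∀ g : G, g • w = w → g ∈ normalizer (W : Set G) := by
      have key : ∀ g : G, g • w = w → ∀ x ∈ W, g * x * g⁻¹ ∈ W := fun g hg x hx => by
        have hle' : W ≤ W.comap (MulAut.conj g).toMonoidHom := iSup_le fun y z hz =>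
          hle (adj_fix hg y.2) (conj_mem_ZA g hz)
        exact hle' hx
      intro g hg
      refine mem_normalizer_iff.2 fun x => ⟨key g hg x, fun hx => ?_⟩
      have := key g⁻¹ (inv_fix hg) _ hx
      rwa [show g⁻¹ * (g * x * g⁻¹) * g⁻¹⁻¹ = x by group] at this
    have hB1 := ZB_eq hK hb hb4 hp
    have key : ∀ x ∈ W, u * x * u⁻¹ ∈ W := by
      intro x hx
      have hle' : W ≤ W.comap (MulAut.conj u).toMonoidHom := iSup_le fun y z hz => by
        show u * z * u⁻¹ ∈ W
        have hzb1 : z • p (b - 1) = p (b - 1) := Q_fix (hall _ y.2 hz)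
        have hzb : z • p b = p b := Q_fix_adj hlast (hall _ y.2 hz)
        have h1 := phi hAb (K.symm hlast) (t := z) ⟨hzb, hzb1⟩ hu
        rw [← hB1] at h1
        have h2 : u * (z * u * z⁻¹) ∈ W := hle (K.symm hw) (ZB_le_ZA h01 h1)
        have e : u * z * u⁻¹ = u * (z * u * z⁻¹) * z := by rw [ZA_inv hu]; group
        rw [e]
        exact mul_mem h2 (hle y.2 hz)
      exact hle' hx
    have huN : u ∈ normalizer (W : Set G) := mem_normalizer_iff.2 fun x => ⟨key x, fun hx => by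
      have := key _ hx
      rwa [show u * (u * x * u⁻¹) * u⁻¹ = (u * u) * x * (u * u)⁻¹ by group, ZA_sq hu, one_mul, inv_one,
        mul_one] at this⟩
    obtain ⟨t, ht, htQ⟩ := exists_T_not_Q hw
    obtain ⟨c, hc, hc1⟩ := ZB_ne_one (bip_A h01 hA)
    refine hc1 (closure' (K := K) (W : Set G) {w, p 0} ⟨w, Or.inl rfl⟩ ?_ ?_ c
      (hle (K.symm hw) (ZB_le_ZA h01 hc)))
    · rintro x hx v (rfl | rfl)
      · exact (hWT hx).1
      · exact (hWT hx).2
    · rintro v (rfl | rfl) y hy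
      · obtain ⟨g, hg, hgy⟩ := K.trans v y (p 0) hy (K.symm hw)
        exact ⟨g, fun x hx => (mem_normalizer_iff.1 (hwW g hg) x).1 hx, Or.inl hg, Or.inr hgy⟩
      · obtain ⟨h, hH, hh0, hhy⟩ := trans_two (normalizer (W : Set G)) h01 hw hw1.symm ⟨hu0, hu1⟩ huQ huN
          ht htQ (hwW t ht.2) hy hw
        exact ⟨h, fun x hx => (mem_normalizer_iff.1 hH x).1 hx, Or.inr hh0, Or.inl hhy⟩
  · -- a mover at the end of type `B` gives transitivity and so a shift backwards
    push Not at hall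
    obtain ⟨y, hy, hyQ⟩ := hall
    obtain ⟨x, hx, hxQ⟩ := SetLike.not_le_iff_exists.1 hyQ
    have hy0 : y ≠ p 0 := fun e => hxQ (by
      subst e
      exact hK (b - 1) (by omega) p (walk_mono hp.1 (by omega)) hA hx)
    have hxfix : ∀ j ≤ b - 1, x • p j = p j := fun j hj => by
      rcases Nat.lt_or_ge j (b - 1) with h | h
      · exact hfix y hy x hx j (by omega)
      · obtain rfl : j = b - 1 := by omega
        exact Q_fix_adj h21 (hQ2 y hy hx)
    have hxmove : x • p b ≠ p b := K.move _ _ _ (K.symm h21) hlast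
      (by
        have := hnb.2 (b - 2) (by omega)
        rwa [show b - 2 + 2 = b by omega] at this) x
      ⟨hxfix _ le_rfl, hxfix _ (by omega)⟩ hxQ
    obtain ⟨yb, hyb, hybne⟩ := K.other (p b) (p (b - 1)) (K.symm hlast)
    have hmov : ∀ i, 1 ≤ i → i < b → ∀ v : V, ∃ r : ℕ → V, K.NB r i ∧ (K.isA (r 0) ↔ K.isA v) ∧
        ∃ g : G, (∀ j ≤ i, g • r j = r j) ∧ ∃ y, K.adj (r i) y ∧ y ≠ r (i - 1) ∧ g • y ≠ y := by
      intro i hi1 hib v
      by_cases hv : K.isA v ↔ Even i
      · exact mover_suffix hnb hzfix hyb hybne (hzmove yb hyb hybne) hi1 (by omega) (iff_of_true hAb hv.symm)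
      · have hAl : ¬ K.isA (p (b - 1)) := bip_A (K.symm hlast) hAb
        have hne : p b ≠ p (b - 1 - 1) := by
          have := hnb.2 (b - 2) (by omega)
          rw [show b - 2 + 2 = b by omega] at this
          rw [show b - 1 - 1 = b - 2 by omega]
          exact this.symm
        exact mover_suffix (nb_mono hnb (by omega)) hxfix hlast hne hxmove hi1 (by omega)
          (iff_of_false hAl fun h => hv h.symm)
    have hq : K.NB (cons y (cons w p)) b := by
      have := nb_cons (p := cons w p) (K.symm hy) (fun _ => hy0)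
        (nb_cons (K.symm hw) (fun _ => hw1) (nb_mono hnb (show b - 2 ≤ b by omega)))
      rwa [show b - 2 + 1 + 1 = b by omega] at this
    obtain ⟨g, hg⟩ := paths_conj b hmov b le_rfl p (cons y (cons w p)) hnb hq
      (by simp only [cons_zero]; exact iff_of_true hA (hyA y hy))
    exact noback w hw hw1 y hy (crit_congr (crit_smul hp g) hg)

end Gold

end Cfsg.Agent.Lib.GoldAmalgam
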