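import Cfsg.Agent.Lib.GoldAmalgam.Walk

/-!
The critical distances one and two.
-/

set_option autoImplicit false

namespace Cfsg.Agent.Lib.GoldAmalgam

open Subgroup MulAction
open Cfsg.Agent.Lib.S3Amalgam (inv2 TE QV)

variable {G : Type*} [Group G] {V : Type*} [MulAction G V]

namespace Gold

variable (K : Gold G V)

/-- The kernel on the vertices at distance at most two. -/
def CV (v : V) : Subgroup G := K.Q v ⊓ ⨅ w : {w : V // K.adj v w}, K.Q w.1

variable {K}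

theorem mem_CV {v : V} {x : G} : x ∈ K.CV v ↔ x ∈ K.Q v ∧ ∀ w, K.adj v w → x ∈ K.Q w :=
  ⟨fun h => ⟨h.1, fun w hw => mem_iInf.1 h.2 ⟨w, hw⟩⟩, fun h => ⟨h.1, mem_iInf.2 fun w => h.2 w.1 w.2⟩⟩

theorem CV_le {v : V} : K.CV v ≤ K.Q v := inf_le_left

theorem CV_le_adj {v w : V} (h : K.adj v w) : K.CV v ≤ K.Q w := fun _ hx => (mem_CV.1 hx).2 w h

theorem conj_mem_CV (g : G) {v : V} {x : G} (hx : x ∈ K.CV v) : g * x * g⁻¹ ∈ K.CV (g • v) := by
  refine mem_CV.2 ⟨conj_mem_Q g (mem_CV.1 hx).1, fun w hw => ?_⟩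
  have h1 : K.adj v (g⁻¹ • w) := by
    have := K.smul g⁻¹ hw
    rwa [inv_smul_smul] at this
  have := conj_mem_Q g ((mem_CV.1 hx).2 _ h1)
  rwa [smul_inv_smul] at this

theorem Q_card_all (v w : V) : Nat.card (K.Q v) = Nat.card (K.Q w) :=
  (K.conn {u | Nat.card (K.Q v) = Nat.card (K.Q u)} ⟨v, rfl⟩ (fun _ hu _ h => hu.trans (Q_card_eq h)) w)

theorem rel_bot {H X : Subgroup G} (hX : X = ⊥) {n : ℕ} (h : X.relIndex H ≤ n) : Nat.card H ≤ n := by
  rwa [hX, relIndex_bot_left] at h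

theorem b_one {p : ℕ → V} (hK : K.Below 1) (hp : K.Crit p 1) (u : V) : Nat.card (K.Q u) ≤ 64 := by
  have key : ∀ a v, K.isA a → K.adj a v → ∃ z ∈ K.ZA a, z ∈ TE v a ∧ z ∉ K.Q v ∧
      (∀ x ∈ K.CV v, z * x = x * z) ∧ (K.CV v).relIndex (K.Q a) ≤ 4 := by
    intro a v ha hav
    obtain ⟨g0, hg0⟩ := K.atrans (p 0) a hp.2.1 ha
    have hadj : K.adj a (g0 • p 1) := by
      have := K.smul g0 (hp.1 0 (by omega))
      rwa [hg0] at this
    obtain ⟨g1, hg1, hg1'⟩ := K.trans a _ v hadj hav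
    have hc := crit_smul hp (g1 * g0)
    obtain ⟨z, hz, hzQ, hfix, -⟩ := crit_elem hK hc
    rw [mul_smul, hg0, hg1] at hz
    rw [mul_smul, hg1'] at hzQ
    have hzv : z • v = v := by
      have := hfix 1 le_rfl
      rwa [mul_smul, hg1'] at this
    have hzT : z ∈ TE v a := ⟨hzv, Q_fix (ZA_le_Q hz)⟩
    have hcomm : ∀ x ∈ K.CV v, z * x = x * z := fun x hx => (Q_comm_ZA (CV_le_adj (K.symm hav) hx) hz).symm
    refine ⟨z, hz, hzT, hzQ, hcomm, ?_⟩
    obtain ⟨a', ha', hne⟩ := K.other v a (K.symm hav)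
    obtain ⟨a'', ha'', h1, h2, hall⟩ := K.third v a a' (K.symm hav) ha' hne.symm
    have hmap : z • a' = a'' := swap (K.symm hav) ha' ha'' hne.symm h1.symm h2.symm hzT hzQ
    set D := K.Q v ⊓ K.Q a with hD
    have e1 : K.CV v = K.Q a' ⊓ D := by
      refine le_antisymm (le_inf (CV_le_adj ha') (le_inf CV_le (CV_le_adj (K.symm hav)))) fun x hx => ?_
      obtain ⟨hx', hxv, hxa⟩ := hx
      refine mem_CV.2 ⟨hxv, fun w hw => ?_⟩
      rcases hall w hw with rfl | rfl | rfl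
      · exact hxa
      · exact hx'
      · have := conj_mem_Q z hx'
        rwa [hmap, ← Q_comm_ZA hxa hz, mul_inv_cancel_right] at this
    have hDa : D ≤ K.Q a := inf_le_right
    rw [← relIndex_mul_relIndex (K.CV v) D (K.Q a) (e1.le.trans inf_le_right) hDa]
    refine Nat.mul_le_mul (n₂ := 2) (m₂ := 2) ?_ ?_
    · rw [e1, inf_relIndex_right]
      exact half (K.symm ha') fun x hx => ⟨Q_fix_adj ha' hx.1, Q_fix hx.1⟩
    · rw [hD, inf_relIndex_right]
      exact half (K.symm hav) fun x hx => ⟨Q_fix_adj hav hx, Q_fix hx⟩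
  have ha : K.isA (p 0) := hp.2.1
  set a := p 0 with ha_def
  obtain ⟨v, hv⟩ := K.exists_adj a
  obtain ⟨v2, hv2, hne⟩ := K.other a v hv
  obtain ⟨v3, hv3, h31, h32, hall⟩ := K.third a v v2 hv hv2 hne.symm
  set N := ⨅ w : {w : V // K.adj a w}, K.CV w.1 with hN
  have hNle : ∀ w, K.adj a w → N ≤ K.CV w := fun w hw => iInf_le (fun w : {w : V // K.adj a w} => K.CV w.1) ⟨w, hw⟩
  have hNbot : N = ⊥ := by
    rw [eq_bot_iff]
    intro x hx
    rw [mem_bot]
    refine closure' (K := K) (N : Set G) {a, v} ⟨a, Or.inl rfl⟩ ?_ ?_ x hx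
    · rintro y hy w (rfl | rfl)
      · exact Q_fix_adj (K.symm hv) (CV_le (hNle v hv hy))
      · exact Q_fix (CV_le (hNle _ hv hy))
    · rintro w (rfl | rfl) u hu
      · obtain ⟨g, hg, hgu⟩ := K.trans a u v hu hv
        refine ⟨g, fun y hy => ?_, Or.inl hg, Or.inr hgu⟩
        refine mem_iInf.2 fun w => ?_
        have h1 : K.adj a (g⁻¹ • w.1) := by
          have := K.smul g⁻¹ w.2
          rwa [inv_fix hg] at this
        have := conj_mem_CV g (hNle _ h1 hy)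
        rwa [smul_inv_smul] at this
      · obtain ⟨a', ha', hne'⟩ := K.other w a (K.symm hv)
        obtain ⟨z, -, hzT, hzQ, hzc, -⟩ := key a w ha hv
        obtain ⟨z', -, hzT', hzQ', hzc', -⟩ := key a' w (bip_B ha' (bip_A hv ha)) (K.symm ha')
        have hcent : ∀ {z : G}, (∀ y ∈ K.CV w, z * y = y * z) → z ∈ centralizer (N : Set G) := fun hc =>
          mem_centralizer_iff.2 fun y hy => (hc y (hNle w hv hy)).symm
        obtain ⟨h, hH, hhw, hhu⟩ := trans_two (centralizer (N : Set G)) (K.symm hv) ha' hne'.symm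
          hzT hzQ (hcent hzc) hzT' hzQ' (hcent hzc') hu (K.symm hv)
        refine ⟨h, fun y hy => ?_, Or.inr hhw, Or.inl hhu⟩
        rwa [← mem_centralizer_iff.1 hH y hy, mul_inv_cancel_right]
  have heq : K.CV v ⊓ (K.CV v2 ⊓ K.CV v3) ≤ N := fun x hx => mem_iInf.2 fun w => by
    rcases hall w.1 w.2 with e | e | e <;> rw [e]
    exacts [hx.1, hx.2.1, hx.2.2]
  rw [Q_card_all u a]
  refine (rel_bot (eq_bot_iff.2 (heq.trans hNbot.le)) (?_ : _ ≤ 4 * (4 * 4))).trans (by norm_num)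
  refine relIndex_inf_le.trans (Nat.mul_le_mul ?_ (relIndex_inf_le.trans (Nat.mul_le_mul ?_ ?_)))
  · obtain ⟨-, -, -, -, -, h⟩ := key a v ha hv; exact h
  · obtain ⟨-, -, -, -, -, h⟩ := key a v2 ha hv2; exact h
  · obtain ⟨-, -, -, -, -, h⟩ := key a v3 ha hv3; exact h

theorem crit_rev_even {b : ℕ} (hK : K.Below b) (hb : Even b) {p : ℕ → V} (hp : K.Crit p b) :
    K.Crit (fun i => p (b - i)) b := by
  have hA : K.isA (p b) := (isA_of hp.1 hp.2.1 le_rfl).2 hb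
  refine ⟨walk_rev hp.1, by simpa using hA, fun h => hp.2.2 fun z hz => ?_⟩
  have h' : K.ZA (p b) ≤ K.Q (p 0) := by simpa using h
  exact faith hA (fix_below hK hp.1 hp.2.1 le_rfl hz) fun y hy => (Q_comm_ZA (h' hy) hz).symm

theorem b_two {p : ℕ → V} (hK : K.Below 2) (hp : K.Crit p 2) (u : V) : Nat.card (K.Q u) ≤ 64 := by
  set a := p 0 with ha_def
  set v := p 1 with hv_def
  have hav : K.adj a v := hp.1 0 (by omega)
  have hA : K.isA a := hp.2.1
  have hvB := bip_A hav hA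
  have hv2 : K.adj v (p 2) := hp.1 1 (by omega)
  obtain ⟨u', hu', huQ, hufix, -⟩ := crit_elem hK (crit_rev_even hK (by decide) hp)
  simp only [Nat.sub_zero, Nat.sub_self] at hu' huQ
  have huT : u' ∈ TE a v := ⟨by simpa using hufix 2 le_rfl, by simpa using hufix 1 (by omega)⟩
  obtain ⟨w, hw, hwv⟩ := K.other a v hav
  obtain ⟨g, hga, hgv⟩ := K.trans a v w hav hw
  set u2 := g * u' * g⁻¹ with hu2
  have hu2T : u2 ∈ TE a w := ⟨by have := conj_fix g huT.1; rwa [hga] at this,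
    by have := conj_fix g huT.2; rwa [hgv] at this⟩
  have hu2Q : u2 ∉ K.Q a := fun h => huQ (by rw [← hga] at h; exact (conj_mem_Q_iff g).1 h)
  have hc1 : ∀ x ∈ K.CV v, u' * x = x * u' := fun x hx => (Q_comm_ZA (CV_le_adj hv2 hx) hu').symm
  have hc2 : ∀ x ∈ K.CV w, u2 * x = x * u2 := fun x hx => by
    have h1 : K.adj w (g • p 2) := by
      have := K.smul g hv2
      rwa [hgv] at this
    exact (Q_comm_ZA (CV_le_adj h1 hx) (conj_mem_ZA g hu')).symm
  set X := K.CV v ⊓ K.CV w with hX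
  have hconjQ : ∀ q ∈ K.Q a, ∀ x ∈ X, q * x * q⁻¹ ∈ X := fun q hq x hx => by
    refine ⟨?_, ?_⟩
    · have := conj_mem_CV q hx.1
      rwa [Q_fix_adj hav hq] at this
    · have := conj_mem_CV q hx.2
      rwa [Q_fix_adj hw hq] at this
  have hQn : K.Q a ≤ normalizer (X : Set G) := fun q hq => by
    refine mem_normalizer_iff.2 fun x => ⟨hconjQ q hq x, fun hx => ?_⟩
    have := hconjQ q⁻¹ (inv_mem hq) _ hx
    rwa [show q⁻¹ * (q * x * q⁻¹) * q⁻¹⁻¹ = x by group] at this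
  have hcn : ∀ {z : G}, z ∈ centralizer (X : Set G) → z ∈ normalizer (X : Set G) := fun {z} hz => by
    refine mem_normalizer_iff.2 fun x => ⟨fun hx => ?_, fun hx => ?_⟩
    · rwa [← mem_centralizer_iff.1 hz x hx, mul_inv_cancel_right]
    · have h1 := mem_centralizer_iff.1 hz _ hx
      have : x = z * x * z⁻¹ := by
        calc x = z⁻¹ * ((z * x * z⁻¹) * z) := by group
          _ = z⁻¹ * (z * (z * x * z⁻¹)) := by rw [h1]
          _ = z * x * z⁻¹ := by group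
      rwa [this]
  have hu'c : u' ∈ centralizer (X : Set G) := mem_centralizer_iff.2 fun x hx => (hc1 x hx.1).symm
  have hu2c : u2 ∈ centralizer (X : Set G) := mem_centralizer_iff.2 fun x hx => (hc2 x hx.2).symm
  have hXbot : X = ⊥ := by
    by_contra hne
    have hT : TE (G := G) v a ≤ normalizer (X : Set G) := fun t ht =>
      le_of_gen hav hQn huT huQ (hcn hu'c) (T_comm ht)
    obtain ⟨z, hzX, hzB, hz1⟩ := normal_meets (K.symm hav) hvB
      (fun x hx => Q_le_T (K.symm hav) (CV_le hx.1) : X ≤ TE v a)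
      (fun t ht x hx => (mem_normalizer_iff.1 (hT ht) x).1 hx) hne
    refine hz1 (closure_elem (K := K) z {a, v} ⟨a, Or.inl rfl⟩ ?_ ?_)
    · rintro y (rfl | rfl)
      · exact Q_fix_adj (K.symm hav) (CV_le hzX.1)
      · exact hzB.1
    · rintro y (rfl | rfl) y' hy'
      · obtain ⟨h, hH, hha, hhy⟩ := trans_two (centralizer (X : Set G)) hav hw hwv.symm huT huQ hu'c
          hu2T hu2Q hu2c hy' hav
        exact ⟨h, (mem_centralizer_iff.1 hH z hzX).symm, Or.inl hha, Or.inr hhy⟩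
      · obtain ⟨h, hhv, hhy⟩ := K.trans v y' a hy' (K.symm hav)
        exact ⟨h, hzB.2.2 h hhv, Or.inr hhv, Or.inl hhy⟩
  rw [Q_card_all u v]
  refine (rel_bot hXbot (?_ : X.relIndex (K.Q v) ≤ 8 * 8)).trans (by norm_num)
  rw [← relIndex_mul_relIndex X (K.CV v) (K.Q v) inf_le_left CV_le]
  refine Nat.mul_le_mul ?_ ?_
  · rw [hX, inf_relIndex_left]
    obtain ⟨c, hc, hca⟩ := K.other w a (K.symm hw)
    obtain ⟨d, hd, hda, hdc, hall⟩ := K.third w a c (K.symm hw) hc hca.symm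
    have hle : K.Q w ⊓ (K.Q c ⊓ K.Q d) ⊓ K.CV v ≤ K.CV w := fun x hx => mem_CV.2 ⟨hx.1.1, fun y hy => by
      rcases hall y hy with rfl | rfl | rfl
      exacts [CV_le_adj (K.symm hav) hx.2, hx.1.2.1, hx.1.2.2]⟩
    have h1 : (K.CV w ⊓ K.CV v).relIndex (K.CV v) = (K.CV w).relIndex (K.CV v) := inf_relIndex_right _ _
    rw [← h1]
    set H1 := K.Q w ⊓ K.CV v with hH1
    rw [← relIndex_mul_relIndex (K.CV w ⊓ K.CV v) H1 (K.CV v) (inf_le_inf_right _ CV_le) inf_le_right]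
    refine (Nat.mul_le_mul (n₂ := 4) (m₂ := 2) ?_ ?_).trans (le_refl 8)
    · have e : K.CV w ⊓ K.CV v = K.Q c ⊓ K.Q d ⊓ H1 := le_antisymm
        (fun x hx => ⟨⟨CV_le_adj hc hx.1, CV_le_adj hd hx.1⟩, CV_le hx.1, hx.2⟩)
        (fun x hx => ⟨hle ⟨⟨hx.2.1, hx.1⟩, hx.2.2⟩, hx.2.2⟩)
      rw [e, inf_relIndex_right]
      refine relIndex_inf_le.trans (Nat.mul_le_mul (n₂ := 2) (m₂ := 2) ?_ ?_)
      · exact half (K.symm hc) fun x hx => ⟨Q_fix_adj hc hx.1, Q_fix hx.1⟩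
      · exact half (K.symm hd) fun x hx => ⟨Q_fix_adj hd hx.1, Q_fix hx.1⟩
    · rw [hH1, inf_relIndex_right]
      exact half (K.symm hw) fun x hx => ⟨Q_fix_adj hw (CV_le_adj (K.symm hav) hx), Q_fix (CV_le_adj (K.symm hav) hx)⟩
  · obtain ⟨c, hc, hca⟩ := K.other v a (K.symm hav)
    obtain ⟨d, hd, hda, hdc, hall⟩ := K.third v a c (K.symm hav) hc hca.symm
    have e : K.CV v = K.Q a ⊓ (K.Q c ⊓ K.Q d) ⊓ K.Q v := le_antisymm
      (le_inf (le_inf (CV_le_adj (K.symm hav)) (le_inf (CV_le_adj hc) (CV_le_adj hd))) CV_le)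
      (fun x hx => mem_CV.2 ⟨hx.2, fun y hy => by
        rcases hall y hy with rfl | rfl | rfl
        exacts [hx.1.1, hx.1.2.1, hx.1.2.2]⟩)
    rw [e, inf_relIndex_right]
    refine relIndex_inf_le.trans ((Nat.mul_le_mul (n₂ := 2) (m₂ := 4) ?_ ?_).trans (le_refl 8))
    · exact half hav fun x hx => ⟨Q_fix_adj (K.symm hav) hx, Q_fix hx⟩
    · refine relIndex_inf_le.trans (Nat.mul_le_mul (n₂ := 2) (m₂ := 2) ?_ ?_)
      · exact half (K.symm hc) fun x hx => ⟨Q_fix_adj hc hx, Q_fix hx⟩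
      · exact half (K.symm hd) fun x hx => ⟨Q_fix_adj hd hx, Q_fix hx⟩

end Gold

end Cfsg.Agent.Lib.GoldAmalgam
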