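import Cfsg.Agent.Lib.GoldAmalgam.Comm
import Cfsg.Agent.Lib.GoldAmalgam.Small

/-!
The critical distance three.
-/

set_option autoImplicit false

namespace Cfsg.Agent.Lib.GoldAmalgam

open Subgroup MulAction
open Cfsg.Agent.Lib.S3Amalgam (inv2 TE QV)

variable {G : Type*} [Group G] {V : Type*} [MulAction G V]

namespace Gold

/-- The common part of the kernels at distance three. -/
def N2 (K : Gold G V) (a : V) : Subgroup G := ⨅ v : {v : V // K.adj a v}, K.CV v.1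

variable {K : Gold G V} {p : ℕ → V} {y : V} {z z' : G}

theorem not_good (C : Cfg K 3 p y z z') (hu : K.Uni) : ¬ K.Good := by
  intro hg
  set w := z * (z' * z * z'⁻¹) with hw
  have a21 : K.adj (p 2) (p 1) := K.symm C.adj12
  have a23 : K.adj (p 2) (p 3) := C.crit.1 2 (by omega)
  have hne : p 1 ≠ p 3 := (crit_nb C.below C.crit).2 1 (by omega)
  obtain ⟨q1, hq1, hq12, hq1iff⟩ := good_at hg C.B1 C.adj10 C.adj1' C.adj12 C.move0.symm C.ne02 C.ne'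
  have hQ : K.Q (p 2) ≤ centralizer ({w} : Set G) := fun q hq => by
    have v1 := C.mod_first hu (g := q) ⟨Q_fix_adj a21 hq, Q_fix hq⟩
    have v3 := C.mod_last hu (g := q) ⟨Q_fix_adj a23 hq, Q_fix hq⟩
    have h := ZB_inter a21 a23 hne v1 v3
    rw [mul_inv_eq_one, mul_inv_eq_iff_eq_mul] at h
    exact mem_centralizer_singleton_iff.2 h
  have hT := le_of_gen a21 hQ ⟨Q_fix_adj C.adj12 hq1, Q_fix hq1⟩ hq12
    (mem_centralizer_singleton_iff.2 (C.parity1 hu hq1 hq1iff))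
  exact C.notmem (inv2_T C.B1 C.adj12 ⟨C.T12, C.sq, fun g hg => mem_centralizer_singleton_iff.1 (hT (T_comm hg))⟩)

namespace Cfg

theorem rev {b : ℕ} (C : Cfg K b p y z z') : Cfg K b (rv p b y) (p 0) z' z where
  below := C.below
  odd := C.odd
  three := C.three
  crit := C.rvc
  adjy := by
    have := C.three
    rw [rv_pos _ _ _ (by omega), show b + 1 - b = 1 by omega]; exact C.adj10
  ne := by
    have := C.three
    rw [rv_pos _ _ _ (by omega), show b + 1 - (b - 1) = 2 by omega]; exact C.ne02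
  hz := by rw [rv_zero]; exact C.hz'
  hzQ := by
    have := C.three
    rw [rv_pos _ _ _ (by omega), show b + 1 - b = 1 by omega]; exact C.hz'Q
  hz' := C.hz
  hz'Q := by
    have := C.three
    rw [rv_pos _ _ _ (by omega), show b + 1 - 1 = b by omega]; exact C.hzQ

theorem smul {b : ℕ} (C : Cfg K b p y z z') (g : G) :
    Cfg K b (fun i => g • p i) (g • y) (g * z * g⁻¹) (g * z' * g⁻¹) where
  below := C.below
  odd := C.odd
  three := C.three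
  crit := crit_smul C.crit g
  adjy := K.smul g C.adjy
  ne := fun e => C.ne (smul_left_cancel g e)
  hz := conj_mem_ZA g C.hz
  hzQ := fun h => C.hzQ ((conj_mem_Q_iff g).1 h)
  hz' := conj_mem_ZA g C.hz'
  hz'Q := fun h => C.hz'Q ((conj_mem_Q_iff g).1 h)

theorem adj23 (C : Cfg K 3 p y z z') : K.adj (p 2) (p 3) := C.crit.1 2 (by omega)

theorem ne13 (C : Cfg K 3 p y z z') : p 1 ≠ p 3 := (crit_nb C.below C.crit).2 1 (by omega)

theorem A2 (C : Cfg K 3 p y z z') : K.isA (p 2) := bip_B C.adj12 C.B1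

theorem B3 (C : Cfg K 3 p y z z') : ¬ K.isA (p 3) := not_A_end C.odd C.crit

theorem z'n (C : Cfg K 3 p y z z') : z' ∉ K.ZB (p 3) := by
  have := C.rev.zn
  rwa [rv_pos _ _ _ le_rfl] at this

theorem conj_z' (C : Cfg K 3 p y z z') (hu : K.Uni) (hg : ¬ K.Good) {g : G} (h2 : g • p 2 = p 2)
    (h3 : g • p 3 = p 3) : g * z' * g⁻¹ * z'⁻¹ ∈ K.ZA (p 2) := by
  have hyA : K.isA y := bip_B C.adjy C.B3
  have hP : K.ZB (p 3) ≤ K.ZA (p 2) := ZB_le_ZA C.adj23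
  have hz'3 : z' • p 3 = p 3 := C.z'fix (by omega) le_rfl
  have hz2 : z • p 2 = p 2 := C.zfix (by omega)
  have hz3 : z • p 3 = p 3 := C.zfix le_rfl
  by_cases hy : g • y = y
  · have h := phi hyA (K.symm C.adjy) (t := g) ⟨hy, h3⟩ C.hz'
    rw [ZA_inv C.hz', ← Q_comm_ZA (ZA_le_Q C.hz') (conj_ZA_of_fix hy C.hz')]
    exact hP h
  · have hzy : z • y ≠ y := K.move _ _ _ (K.symm C.adj23) C.adjy C.ne.symm z ⟨hz3, hz2⟩ C.hzQ
    have hzy2 : z • y ≠ p 2 := fun e => C.ne (smul_left_cancel z (e.trans hz2.symm))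
    have hgy : g • y = z • y := by
      rcases nbr_cases (K.symm C.adj23) C.adjy (adj_fix hz3 C.adjy) C.ne.symm hzy2.symm hzy.symm
        (adj_fix h3 C.adjy) with e | e | e
      · exact absurd (smul_left_cancel g (e.trans h2.symm)) C.ne
      · exact absurd e hy
      · exact e
    have hgz : g * z' * g⁻¹ ∈ K.ZA (z • y) := hgy ▸ conj_mem_ZA g C.hz'
    have P := coset hu ((K.isA_smul z y).2 hyA) (K.symm (adj_fix hz3 C.adjy)) (conj_mem_ZA z C.hz') hgz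
      (conj_not_ZB hz3 C.z'n) (conj_not_ZB h3 C.z'n)
    have hw := C.even_mem hu hg
    set P0 := z * z' * z⁻¹ * (g * z' * g⁻¹) with hP0
    have e : g * z' * g⁻¹ * z'⁻¹ = z * (z' * z * z'⁻¹) * P0 := by
      calc g * z' * g⁻¹ * z'⁻¹ = (z * z' * z⁻¹) * P0 * z'⁻¹ := by
            rw [hP0, ← mul_assoc (z * z' * z⁻¹), ZA_sq (conj_mem_ZA z C.hz'), one_mul]
        _ = z * z' * z⁻¹ * (P0 * z') := by rw [ZA_inv C.hz', mul_assoc]
        _ = z * z' * z⁻¹ * (z' * P0) := by rw [P.2.2 z' hz'3]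
        _ = z * (z' * z * z'⁻¹) * P0 := by
            rw [ZA_inv C.hz, ZA_inv C.hz']; group
    rw [e]
    exact mul_mem hw (hP P)

end Cfg

/-- The join of the modules around a vertex. -/
def VB (K : Gold G V) (v : V) : Subgroup G := ⨆ a : {a : V // K.adj v a}, K.ZA a.1

theorem VB_conj {g : G} {v : V} (hg : g • v = v) {x : G} (hx : x ∈ K.VB v) : g * x * g⁻¹ ∈ K.VB v := by
  have hle : K.VB v ≤ (K.VB v).comap (MulAut.conj g).toMonoidHom := iSup_le fun a u hu =>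
    le_iSup (fun a : {a : V // K.adj v a} => K.ZA a.1) ⟨g • a.1, adj_fix hg a.2⟩ (conj_mem_ZA g hu)
  exact hle hx

theorem VB_le_CV (hK : K.Below 3) {v : V} (hv : ¬ K.isA v) : K.VB v ≤ K.CV v := iSup_le fun a x hx => by
  have hA := bip_B a.2 hv
  refine mem_CV.2 ⟨?_, fun c hc => ?_⟩
  · have := hK 1 (by omega) (cons a.1 fun _ => v)
      (walk_cons (K.symm a.2) (fun i hi => absurd hi (Nat.not_lt_zero i))) hA (by simpa using hx)
    simpa using this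
  · have := hK 2 (by omega) (cons a.1 (cons v fun _ => c))
      (walk_cons (K.symm a.2) (walk_cons hc (fun i hi => absurd hi (Nat.not_lt_zero i)))) hA (by simpa using hx)
    simpa using this

theorem conj_CV_of_fix {g : G} {v : V} (hg : g • v = v) {x : G} (hx : x ∈ K.CV v) : g * x * g⁻¹ ∈ K.CV v := by
  have := conj_mem_CV g hx
  rwa [hg] at this

/-- The elements of the stabiliser that act trivially modulo the join. -/
def Triv (K : Gold G V) (v : V) : Subgroup G where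
  carrier := {g | g • v = v ∧ ∀ x ∈ K.CV v, g * x * g⁻¹ * x⁻¹ ∈ K.VB v}
  one_mem' := ⟨one_smul _ _, fun x _ => by simp⟩
  mul_mem' := by
    rintro g h ⟨hg, hg'⟩ ⟨hh, hh'⟩
    refine ⟨mul_fix hg hh, fun x hx => ?_⟩
    rw [show g * h * x * (g * h)⁻¹ * x⁻¹ = g * (h * x * h⁻¹ * x⁻¹) * g⁻¹ * (g * x * g⁻¹ * x⁻¹) by group]
    exact mul_mem (VB_conj hg (hh' x hx)) (hg' x hx)
  inv_mem' := by
    rintro g ⟨hg, hg'⟩
    refine ⟨inv_fix hg, fun x hx => ?_⟩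
    have := inv_mem (hg' _ (conj_CV_of_fix (inv_fix hg) hx))
    rwa [show (g * (g⁻¹ * x * g⁻¹⁻¹) * g⁻¹ * (g⁻¹ * x * g⁻¹⁻¹)⁻¹)⁻¹ = g⁻¹ * x * g⁻¹⁻¹ * x⁻¹ by group] at this

theorem conj_mem_Triv {g k : G} {v : V} (hg : g • v = v) (hk : k ∈ K.Triv v) : g * k * g⁻¹ ∈ K.Triv v := by
  refine ⟨mul_fix (mul_fix hg hk.1) (inv_fix hg), fun x hx => ?_⟩
  have := VB_conj hg (hk.2 _ (conj_CV_of_fix (inv_fix hg) hx))
  rwa [show g * (k * (g⁻¹ * x * g⁻¹⁻¹) * k⁻¹ * (g⁻¹ * x * g⁻¹⁻¹)⁻¹) * g⁻¹ =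
    g * k * g⁻¹ * x * (g * k * g⁻¹)⁻¹ * x⁻¹ by group] at this

theorem Triv_div {k y : G} {v : V} (hk : k ∈ K.Triv v) (hy : y ∈ K.CV v) : ∃ u ∈ K.VB v, k⁻¹ * y * k = u * y :=
  ⟨k⁻¹ * y * k⁻¹⁻¹ * y⁻¹, (inv_mem hk).2 y hy, by group⟩

namespace Cfg

theorem z'_triv (C : Cfg K 3 p y z z') (hu : K.Uni) (hg : ¬ K.Good) : z' ∈ K.Triv (p 1) := by
  refine ⟨C.z'T.1, fun x hx => ?_⟩
  have hx2 := CV_le_adj C.adj12 hx
  have h := inv_mem (C.conj_z' hu hg (Q_fix hx2) (Q_fix_adj C.adj23 hx2))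
  rw [show (x * z' * x⁻¹ * z'⁻¹)⁻¹ = z' * x * z'⁻¹ * x⁻¹ by group] at h
  exact le_iSup (fun a : {a : V // K.adj (p 1) a} => K.ZA a.1) ⟨p 2, C.adj12⟩ h

/-- An element acting trivially that maps the second neighbour to the first. -/
theorem exists_k (C : Cfg K 3 p y z z') (hu : K.Uni) (hg : ¬ K.Good) :
    ∃ k ∈ K.Triv (p 1), k • p 2 = p 0 := by
  obtain ⟨g, hg1, hg2⟩ := K.trans (p 1) (p 2) (p 0) C.adj12 C.adj10
  set s := g * z' * g⁻¹ with hs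
  have hsT : s ∈ TE (p 1) (p 0) := ⟨by have := conj_fix g C.z'T.1; rwa [hg1] at this,
    by have := conj_fix g C.z'T.2; rwa [hg2] at this⟩
  have hsQ : s ∉ K.Q (p 1) := fun h => C.hz'Q (by rw [← hg1] at h; exact (conj_mem_Q_iff g).1 h)
  refine ⟨z' * s, mul_mem (C.z'_triv hu hg) (conj_mem_Triv hg1 (C.z'_triv hu hg)), ?_⟩
  rw [mul_smul, swap C.adj10 C.adj12 C.adj1' C.ne02 C.move0.symm C.ne'.symm hsT hsQ, ← mul_smul, ZA_sq C.hz',
    one_smul]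

/-- An element acting trivially that moves the third vertex. -/
theorem exists_q (C : Cfg K 3 p y z z') (hu : K.Uni) (hg : ¬ K.Good) :
    ∃ q ∈ K.Triv (p 1), q ∈ K.Q (p 1) ∧ q ∉ K.Q (p 2) := by
  obtain ⟨g, hg1, hg2⟩ := K.trans (p 1) (p 2) (p 0) C.adj12 C.adj10
  set s := g * z' * g⁻¹ with hs
  have hsK : s ∈ K.Triv (p 1) := conj_mem_Triv hg1 (C.z'_triv hu hg)
  have hsT : s ∈ TE (p 1) (p 0) := ⟨by have := conj_fix g C.z'T.1; rwa [hg1] at this,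
    by have := conj_fix g C.z'T.2; rwa [hg2] at this⟩
  have hsQ : s ∉ K.Q (p 1) := fun h => C.hz'Q (by rw [← hg1] at h; exact (conj_mem_Q_iff g).1 h)
  obtain ⟨r, hr, hr0⟩ := K.qne (p 1) (p 0) C.adj10
  have hr1 : r • p 1 = p 1 := Q_fix hr
  refine ⟨s * r * s⁻¹ * r⁻¹, ?_, mul_mem (conj_Q_of_fix hsT.1 hr) (inv_mem hr), fun h => ?_⟩
  · rw [show s * r * s⁻¹ * r⁻¹ = s * (r * s⁻¹ * r⁻¹) by group]
    exact mul_mem hsK (conj_mem_Triv hr1 (inv_mem hsK))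
  have e1 : s • (z' • p 0) = p 2 :=
    swap C.adj10 C.adj1' C.adj12 C.move0.symm C.ne02 C.ne' hsT hsQ
  have h1 : s * r * s⁻¹ ∈ K.Q (p 2) ↔ r ∈ K.Q (z' • p 0) := by rw [← e1]; exact conj_mem_Q_iff s
  have h2 := (two_iff (K.symm C.adj12) (T_comm (Q_le_T C.adj12 (conj_Q_of_fix hsT.1 hr)))
    (T_comm (Q_le_T C.adj12 (inv_mem hr)))).1 h
  rw [h1, inv_mem_iff] at h2
  have h3 := even_at hg C.B1 C.adj12 C.adj1' C.adj10 C.ne'.symm C.ne02.symm C.move0 hr hr0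
  tauto

theorem w_mem (C : Cfg K 3 p y z z') (hu : K.Uni) (hg : ¬ K.Good) {x : V} (hx : K.adj (p 2) x) (h1 : x ≠ p 1)
    (h3 : x ≠ p 3) : z * (z' * z * z'⁻¹) ∈ K.ZB x := by
  rcases ZA_cases hu C.A2 (K.symm C.adj12) C.adj23 hx C.ne13 h1.symm h3.symm (C.even_mem hu hg) with h | h | h
  · exact absurd h C.notmem
  · refine absurd ?_ C.rev.notmem
    rw [rv_pos _ _ _ le_rfl, ← C.eq']
    exact h
  · exact h

theorem comm_VB (C : Cfg K 3 p y z z') (hu : K.Uni) (hg : ¬ K.Good) {x : V} (hx : K.adj (p 2) x) (h1 : x ≠ p 1)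
    (h3 : x ≠ p 3) {u : G} (hu' : u ∈ K.VB (p 1)) : z' * u * z'⁻¹ * u⁻¹ ∈ K.ZB x := by
  have hfixx : ∀ u ∈ K.VB (p 1), u • x = x := fun u hu' =>
    Q_fix_adj hx (CV_le_adj C.adj12 (VB_le_CV C.below C.B1 hu'))
  let R : Subgroup G :=
    { carrier := {u | u ∈ K.VB (p 1) ∧ z' * u * z'⁻¹ * u⁻¹ ∈ K.ZB x}
      one_mem' := ⟨one_mem _, by simp⟩
      mul_mem' := by
        rintro a c ⟨ha, ha'⟩ ⟨hc, hc'⟩
        refine ⟨mul_mem ha hc, ?_⟩
        rw [show z' * (a * c) * z'⁻¹ * (a * c)⁻¹ = (z' * a * z'⁻¹) * ((z' * c * z'⁻¹ * c⁻¹) * a⁻¹) by group,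
          ← hc'.2.2 a⁻¹ (inv_fix (hfixx a ha)), ← mul_assoc]
        exact mul_mem ha' hc'
      inv_mem' := by
        rintro a ⟨ha, ha'⟩
        refine ⟨inv_mem ha, ?_⟩
        have h := conj_ZB_of_fix (inv_fix (hfixx a ha)) (inv_mem ha')
        rw [show a⁻¹ * (z' * a * z'⁻¹ * a⁻¹)⁻¹ * a⁻¹⁻¹ = z' * a⁻¹ * z'⁻¹ * a⁻¹⁻¹ by group] at h
        rw [h]
        exact inv_mem ha' }
  have hle1 : ∀ {a}, K.adj (p 1) a → K.ZA a ≤ K.VB (p 1) := fun {a} ha =>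
    le_iSup (fun a : {a : V // K.adj (p 1) a} => K.ZA a.1) ⟨a, ha⟩
  have h0 : ∀ u ∈ K.ZA (p 0), z' * u * z'⁻¹ * u⁻¹ ∈ K.ZB x := by
    intro u hu0
    by_cases hu1 : u ∈ K.ZB (p 1)
    · rw [conj_ZB_of_fix C.z'T.1 hu1, mul_inv_cancel]
      exact one_mem _
    · have hP := coset hu C.A0 (K.symm C.adj10) C.hz hu0 C.zn hu1
      have e1 : u = z * (z * u) := by rw [← mul_assoc, ZA_sq C.hz, one_mul]
      have e : z' * u * z'⁻¹ * u⁻¹ = z * (z' * z * z'⁻¹) := by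
        conv_lhs => rw [e1]
        rw [show z' * (z * (z * u)) * z'⁻¹ * (z * (z * u))⁻¹ =
          (z' * z * z'⁻¹) * (z' * (z * u) * z'⁻¹ * (z * u)⁻¹) * z⁻¹ by group,
          conj_ZB_of_fix C.z'T.1 hP, mul_inv_cancel, mul_one, ZA_inv C.hz, C.comm]
      rw [e]
      exact C.w_mem hu hg hx h1 h3
  have hle : K.VB (p 1) ≤ R := iSup_le fun a u ha => ⟨hle1 a.2 ha, by
    rcases nbr_cases C.adj10 C.adj1' C.adj12 C.move0.symm C.ne02 C.ne' a.2 with e | e | e <;> rw [e] at ha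
    · exact h0 u ha
    · have hu0 : z' * u * z'⁻¹ ∈ K.ZA (p 0) := by
        have := conj_mem_ZA z' ha
        rwa [← mul_smul, ZA_sq C.hz', one_smul] at this
      have e2 : z' * (z' * u * z'⁻¹) * z'⁻¹ = u := by
        rw [show z' * (z' * u * z'⁻¹) * z'⁻¹ = (z' * z') * u * (z' * z')⁻¹ by group, ZA_sq C.hz', one_mul, inv_one,
          mul_one]
      have := inv_mem (h0 _ hu0)
      rwa [e2, mul_inv_rev, inv_inv] at this
    · rw [Q_comm_ZA C.z'Q2 ha, mul_inv_cancel_right, mul_inv_cancel]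
      exact one_mem _⟩
  exact (hle hu').2

theorem val (C : Cfg K 3 p y z z') (hu : K.Uni) (hg : ¬ K.Good) {x : V} (hx : K.adj (p 2) x) (h1 : x ≠ p 1)
    (h3 : x ≠ p 3) : ∃ a za, K.adj x a ∧ a ≠ p 2 ∧ za ∈ K.ZA a ∧ za ∉ K.ZB x ∧
      ∀ g ∈ K.CV (p 1), g ∈ K.CV (p 3) → g * za * g⁻¹ * za⁻¹ ∈ K.ZB (p 3) := by
  obtain ⟨q, hqK, hq1, hq2⟩ := C.exists_q hu hg
  have hqT : q ∈ TE (p 2) (p 1) := T_comm (Q_le_T C.adj12 hq1)
  have e3 : q • p 3 = x := swap (K.symm C.adj12) C.adj23 hx C.ne13 h1.symm h3.symm hqT hq2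
  have ex : q • x = p 3 := swap (K.symm C.adj12) hx C.adj23 h1.symm C.ne13 h3 hqT hq2
  refine ⟨q • y, q * z' * q⁻¹, ?_, fun e => C.ne (smul_left_cancel q (e.trans hqT.1.symm)), conj_mem_ZA q C.hz', ?_, ?_⟩
  · rw [← e3]; exact K.smul q C.adjy
  · intro h
    have := conj_mem_ZB q⁻¹ h
    rw [← e3, inv_smul_smul, show q⁻¹ * (q * z' * q⁻¹) * q⁻¹⁻¹ = z' by group] at this
    exact C.z'n this
  · intro g hg1 hg3
    obtain ⟨v, hv, hgv⟩ := Triv_div hqK hg1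
    have hc : g * z' = z' * g := Q_comm_ZA (CV_le_adj C.adjy hg3) C.hz'
    have h := conj_mem_ZB q (inv_mem (C.comm_VB hu hg hx h1 h3 hv))
    rw [ex] at h
    have e : g * (q * z' * q⁻¹) * g⁻¹ * (q * z' * q⁻¹)⁻¹ = q * (z' * v * z'⁻¹ * v⁻¹)⁻¹ * q⁻¹ := by
      calc g * (q * z' * q⁻¹) * g⁻¹ * (q * z' * q⁻¹)⁻¹ =
          q * ((q⁻¹ * g * q) * z' * (q⁻¹ * g * q)⁻¹ * z'⁻¹) * q⁻¹ := by group
        _ = q * (v * (g * z') * g⁻¹ * v⁻¹ * z'⁻¹) * q⁻¹ := by rw [hgv]; group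
        _ = q * (z' * v * z'⁻¹ * v⁻¹)⁻¹ * q⁻¹ := by rw [hc]; group
    rw [e]
    exact h

theorem CV_third (C : Cfg K 3 p y z z') (hu : K.Uni) (hg : ¬ K.Good) {x : V} (hx : K.adj (p 2) x) (h1 : x ≠ p 1)
    (h3 : x ≠ p 3) : K.CV (p 1) ⊓ K.CV (p 3) ≤ K.CV x := by
  intro g hgm
  obtain ⟨hg1, hg3⟩ := Subgroup.mem_inf.1 hgm
  have hBx : ¬ K.isA x := bip_A hx C.A2
  have hgQ2 : g ∈ K.Q (p 2) := CV_le_adj C.adj12 hg1
  obtain ⟨a, za, ha, ha2, hza, hzan, hval⟩ := C.val hu hg hx h1 h3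
  obtain ⟨a', za', ha', ha'2, hza', hza'n, hval'⟩ := C.rev.val hu hg (x := x)
    (by rw [rv_pos _ _ _ (by omega)]; exact hx) (by rw [rv_pos _ _ _ le_rfl]; exact h3)
    (by rw [rv_pos _ _ _ (by omega)]; exact h1)
  rw [rv_pos _ _ _ (by omega)] at ha'2
  rw [rv_pos _ _ _ le_rfl, rv_pos _ _ _ (by omega : 1 ≤ 3)] at hval'
  have v3 := hval g hg1 hg3
  have v1 := hval' g hg3 hg1
  have hgx : g • x = x := Q_fix_adj hx hgQ2
  have hA : K.isA a := bip_B ha hBx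
  by_cases hgQ : g ∈ K.Q x
  · have hga : g • a = a := Q_fix_adj ha hgQ
    have hz2 := conj_ZA_of_fix hga hza
    have hP : g * za * g⁻¹ * za⁻¹ ∈ K.ZB x := by
      rw [ZA_inv hza, ← Q_comm_ZA (ZA_le_Q hza) hz2]
      exact phi hA (K.symm ha) (t := g) ⟨hga, hgx⟩ hza
    have h := ZB_inter C.adj23 hx h3.symm v3 hP
    rw [mul_inv_eq_one, mul_inv_eq_iff_eq_mul] at h
    have hgQa : g ∈ K.Q a := fixed_Q hA (K.symm ha) ⟨hga, hgx⟩ hza hzan h
    refine mem_CV.2 ⟨hgQ, fun c hc => ?_⟩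
    by_contra hcQ
    have hca : c ≠ a := fun e => hcQ (e ▸ hgQa)
    have hc2 : c ≠ p 2 := fun e => hcQ (e ▸ hgQ2)
    exact (even_at hg hBx (K.symm hx) ha hc ha2.symm hc2.symm hca.symm hgQ hcQ).1 hgQ2 hgQa
  · exfalso
    have hgT : g ∈ TE x (p 2) := ⟨hgx, Q_fix hgQ2⟩
    have hga : g • a ≠ a := K.move x (p 2) a (K.symm hx) ha ha2.symm g hgT hgQ
    have hga2 : g • a ≠ p 2 := fun e => ha2 (smul_left_cancel g (e.trans hgT.2.symm))
    have key : ∀ u : G, u ∉ K.ZB x → ∀ c, K.adj x c → za' ∈ K.ZA c → u ∈ K.ZA c →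
        g * za' * g⁻¹ * za'⁻¹ = g * u * g⁻¹ * u⁻¹ := by
      intro u hun c hc hzc huc
      have hP := coset hu (bip_B hc hBx) (K.symm hc) huc hzc hun hza'n
      have e : za' = u * (u * za') := by rw [← mul_assoc, ZA_sq huc, one_mul]
      conv_lhs => rw [e]
      rw [show g * (u * (u * za')) * g⁻¹ * (u * (u * za'))⁻¹ =
        (g * u * g⁻¹) * (g * (u * za') * g⁻¹ * (u * za')⁻¹) * u⁻¹ by group,
        conj_ZB_of_fix hgx hP, mul_inv_cancel, mul_one]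
    have hEq : g * za' * g⁻¹ * za'⁻¹ = g * za * g⁻¹ * za⁻¹ := by
      rcases nbr_cases (K.symm hx) ha (adj_fix hgx ha) ha2.symm hga2.symm hga.symm ha' with e | e | e
      · exact absurd e ha'2
      · exact key za hzan a ha (e ▸ hza') hza
      · rw [key _ (conj_not_ZB hgx hzan) _ (adj_fix hgx ha) (e ▸ hza') (conj_mem_ZA g hza)]
        calc g * (g * za * g⁻¹) * g⁻¹ * (g * za * g⁻¹)⁻¹ = g * (g * za * g⁻¹ * za⁻¹) * g⁻¹ := by group
          _ = g * za * g⁻¹ * za⁻¹ := by rw [Q_comm_ZA hgQ2 (ZB_le_ZA C.adj23 v3), mul_inv_cancel_right]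
    rw [hEq] at v1
    have h := ZB_inter (K.symm C.adj12) C.adj23 C.ne13 v1 v3
    rw [mul_inv_eq_one] at h
    exact hzan (ZA_inter hBx ha (adj_fix hgx ha) hga.symm hza (by
      have := conj_mem_ZA g hza
      rwa [h] at this))

theorem N2_eq (C : Cfg K 3 p y z z') (hu : K.Uni) (hg : ¬ K.Good) :
    K.CV (p 1) ⊓ K.CV (p 3) = K.N2 (p 2) := by
  refine le_antisymm (fun g hg' => mem_iInf.2 fun v => ?_)
    (le_inf (iInf_le (fun v : {v : V // K.adj (p 2) v} => K.CV v.1) ⟨p 1, K.symm C.adj12⟩)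
      (iInf_le (fun v : {v : V // K.adj (p 2) v} => K.CV v.1) ⟨p 3, C.adj23⟩))
  by_cases e1 : v.1 = p 1
  · rw [e1]; exact hg'.1
  by_cases e3 : v.1 = p 3
  · rw [e3]; exact hg'.2
  exact C.CV_third hu hg v.2 e1 e3 hg'

/-- The data at one side of the middle vertex. -/
theorem side (C : Cfg K 3 p y z z') (hu : K.Uni) (hg : ¬ K.Good) :
    ∃ t : G, (∀ g ∈ K.N2 (p 2), g * z' = z' * g) ∧ t ∈ TE (p 1) (p 0) ∧ t ∉ K.Q (p 1) ∧
      (∀ g ∈ K.N2 (p 2), ∀ g' ∈ K.N2 (p 2), g * t ≠ t * g → g' * t ≠ t * g' → g * g' * t = t * (g * g')) := by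
  obtain ⟨k, hkK, hk⟩ := C.exists_k hu hg
  obtain ⟨x, hx, hx1, hx3, -⟩ := K.third (p 2) (p 1) (p 3) (K.symm C.adj12) C.adj23 C.ne13
  have hkx : K.adj (p 0) (k • x) := by
    have := K.smul k hx
    rwa [hk] at this
  have hN : ∀ g ∈ K.N2 (p 2), g ∈ K.CV (p 1) ∧ g ∈ K.CV (p 3) := fun g hg' => Subgroup.mem_inf.1 (by
    rw [C.N2_eq hu hg]; exact hg')
  have hval : ∀ g ∈ K.N2 (p 2), g * (k * z' * k⁻¹) * g⁻¹ * (k * z' * k⁻¹)⁻¹ ∈ K.ZB (k • x) := by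
    intro g hgN
    obtain ⟨hg1, hg3⟩ := hN g hgN
    obtain ⟨v, hv, hgv⟩ := Triv_div hkK hg1
    have hc : g * z' = z' * g := Q_comm_ZA (CV_le_adj C.adjy hg3) C.hz'
    have h := conj_mem_ZB k (inv_mem (C.comm_VB hu hg hx hx1 hx3 hv))
    have e : g * (k * z' * k⁻¹) * g⁻¹ * (k * z' * k⁻¹)⁻¹ = k * (z' * v * z'⁻¹ * v⁻¹)⁻¹ * k⁻¹ := by
      calc g * (k * z' * k⁻¹) * g⁻¹ * (k * z' * k⁻¹)⁻¹ =
          k * ((k⁻¹ * g * k) * z' * (k⁻¹ * g * k)⁻¹ * z'⁻¹) * k⁻¹ := by group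
        _ = k * (v * (g * z') * g⁻¹ * v⁻¹ * z'⁻¹) * k⁻¹ := by rw [hgv]; group
        _ = k * (z' * v * z'⁻¹ * v⁻¹)⁻¹ * k⁻¹ := by rw [hc]; group
    rw [e]
    exact h
  refine ⟨k * z' * k⁻¹, fun g hg' => Q_comm_ZA (CV_le_adj C.adjy (hN g hg').2) C.hz', ⟨?_, ?_⟩, fun h => C.hz'Q ?_, ?_⟩
  · have := conj_fix k C.z'T.1
    rwa [hkK.1] at this
  · have := conj_fix k C.z'T.2
    rwa [hk] at this
  · rw [← hkK.1] at h
    exact (conj_mem_Q_iff k).1 h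
  · intro g hgN g' hgN' hn hn'
    set t := k * z' * k⁻¹ with ht
    have n : ∀ {g : G}, g * t ≠ t * g → g * t * g⁻¹ * t⁻¹ ≠ 1 := fun {g} hn e => hn (by
      rwa [mul_inv_eq_one, mul_inv_eq_iff_eq_mul] at e)
    have e := hu (k • x) (bip_A hkx C.A0) _ (hval g hgN) _ (hval g' hgN') (n hn) (n hn')
    have hfix : g • (k • x) = k • x := Q_fix_adj hkx (CV_le_adj C.adj10 (hN g hgN).1)
    set d := g * t * g⁻¹ * t⁻¹ with hd
    have hd2 := (hval g hgN).2.1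
    have h : g * g' * t * (g * g')⁻¹ = t := by
      calc g * g' * t * (g * g')⁻¹ = g * (g' * t * g'⁻¹ * t⁻¹) * g⁻¹ * (g * t * g⁻¹) := by group
        _ = d * (g * t * g⁻¹) := by rw [← e, conj_ZB_of_fix hfix (hval g hgN)]
        _ = d * (d * t) := by rw [hd]; group
        _ = t := by rw [← mul_assoc, hd2, one_mul]
    rwa [mul_inv_eq_iff_eq_mul] at h

end Cfg

theorem b_three (hu : K.Uni) {p : ℕ → V} (hK : K.Below 3) (hp : K.Crit p 3) (u0 : V) :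
    Nat.card (K.Q u0) ≤ 64 := by
  obtain ⟨y, hy, hne⟩ := K.other (p 3) (p 2) (adj_last hp.1 (by omega))
  obtain ⟨z, z', C⟩ := exists_cfg hK (by decide) le_rfl hp hy hne
  have hg : ¬ K.Good := not_good C hu
  set a := p 2 with ha_def
  have a1 : K.adj a (p 1) := K.symm C.adj12
  have hconj : ∀ {g : G}, g • a = a → ∀ x ∈ K.N2 a, g * x * g⁻¹ ∈ K.N2 a := fun {g} hg x hx => mem_iInf.2 fun v => by
    have h1 := mem_iInf.1 hx ⟨g⁻¹ • v.1, adj_fix (inv_fix hg) v.2⟩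
    have := conj_mem_CV g h1
    rwa [smul_inv_smul] at this
  obtain ⟨x, hx, hx1, hx3, hall⟩ := K.third a (p 1) (p 3) a1 C.adj23 C.ne13
  have hNle : ∀ v, K.adj a v → K.N2 a ≤ K.CV v := fun v hv =>
    iInf_le (fun v : {v : V // K.adj a v} => K.CV v.1) ⟨v, hv⟩
  have hNT : K.N2 a ≤ TE a (p 1) := fun g hg' => Q_le_T a1 (CV_le_adj C.adj12 (hNle _ a1 hg'))
  haveI := T_finite_le a1 hNT
  -- one side for each neighbour
  have hside : ∀ v, K.adj a v → ∃ E ≤ K.N2 a, E.relIndex (K.N2 a) ≤ 2 ∧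
      ∀ u u', K.adj v u → K.adj v u' → ∃ g ∈ centralizer (E : Set G), g • v = v ∧ g • u = u' := by
    intro v hv
    obtain ⟨g, hga, hgv⟩ := K.trans a (p 1) v a1 hv
    obtain ⟨t, h1, htT, htQ, h2⟩ := (C.smul g).side hu hg
    have C' := C.smul g
    simp only [hgv, show g • p 2 = a from hga] at h1 htT htQ h2
    refine ⟨K.N2 a ⊓ centralizer ({t} : Set G), inf_le_left, ?_, fun u u' hu' hu'' => ?_⟩
    · rw [inf_relIndex_left]
      exact index_two_sub fun c hc d hd nc nd => mem_centralizer_singleton_iff.2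
        (h2 c hc d hd (fun e => nc (mem_centralizer_singleton_iff.2 e))
          (fun e => nd (mem_centralizer_singleton_iff.2 e)))
    · have hz'T := C'.z'T
      have hz'Q := C'.hz'Q
      simp only [hgv, show g • p 2 = a from hga] at hz'T hz'Q
      refine trans_two _ (K.symm hv) (show K.adj v (g • p 0) by rw [← hgv]; exact K.smul g C.adj10) ?_ hz'T hz'Q ?_ ⟨htT.1, htT.2⟩ htQ ?_ hu' hu''
      · intro e
        exact C.ne02 (smul_left_cancel g (e.symm.trans hga.symm))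
      · exact mem_centralizer_iff.2 fun c hc => h1 c hc.1
      · exact mem_centralizer_iff.2 fun c hc => mem_centralizer_singleton_iff.1 hc.2
  obtain ⟨E1, hE1, hi1, hc1⟩ := hside (p 1) a1
  obtain ⟨E3, hE3, hi3, hc3⟩ := hside (p 3) C.adj23
  obtain ⟨Ex, hEx, hix, hcx⟩ := hside x hx
  have hN : E1 ⊓ (E3 ⊓ Ex) = ⊥ := by
    rw [eq_bot_iff]
    intro g hgE
    rw [mem_bot]
    have hfix : g • a = a := Q_fix (CV_le_adj C.adj12 (hNle _ a1 (hE1 hgE.1)))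
    have hfv : ∀ v, K.adj a v → g • v = v := fun v hv => Q_fix (CV_le (hNle _ hv (hE1 hgE.1)))
    refine closure_elem (K := K) g {a, p 1, p 3, x} ⟨a, Or.inl rfl⟩ ?_ ?_
    · rintro v (rfl | rfl | rfl | rfl)
      exacts [hfix, hfv _ a1, hfv _ C.adj23, hfv _ hx]
    · rintro v (rfl | rfl | rfl | rfl) u hu'
      · refine ⟨1, by simp, by rw [one_smul]; exact Or.inl rfl, ?_⟩
        rw [one_smul]
        rcases hall u hu' with e | e | e
        exacts [Or.inr (Or.inl e), Or.inr (Or.inr (Or.inl e)), Or.inr (Or.inr (Or.inr e))]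
      · obtain ⟨h, hH, hhv, hhu⟩ := hc1 u a hu' (K.symm a1)
        exact ⟨h, (mem_centralizer_iff.1 hH g hgE.1).symm, Or.inr (Or.inl hhv), Or.inl hhu⟩
      · obtain ⟨h, hH, hhv, hhu⟩ := hc3 u a hu' (K.symm C.adj23)
        exact ⟨h, (mem_centralizer_iff.1 hH g hgE.2.1).symm, Or.inr (Or.inr (Or.inl hhv)), Or.inl hhu⟩
      · obtain ⟨h, hH, hhv, hhu⟩ := hcx u a hu' (K.symm hx)
        exact ⟨h, (mem_centralizer_iff.1 hH g hgE.2.2).symm, Or.inr (Or.inr (Or.inr hhv)), Or.inl hhu⟩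
  have h8 : Nat.card (K.N2 a) ≤ 8 :=
    rel_bot hN ((relIndex_inf_le.trans (Nat.mul_le_mul hi1 (relIndex_inf_le.trans (Nat.mul_le_mul hi3 hix)))).trans
      (le_refl 8))
  -- the module has order four
  have hA := C.A2
  obtain ⟨c1, hc1', hc1n⟩ := ZB_ne_one C.B1
  obtain ⟨c3, hc3', hc3n⟩ := ZB_ne_one C.B3
  have c13 : c1 ∉ K.ZB (p 3) := fun h => hc1n (ZB_inter a1 C.adj23 C.ne13 hc1' h)
  have c31 : c3 ∉ K.ZB (p 1) := fun h => hc3n (ZB_inter a1 C.adj23 C.ne13 h hc3')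
  have hc1A := ZB_le_ZA a1 hc1'
  have hc3A := ZB_le_ZA C.adj23 hc3'
  let f : Fin 4 → K.ZA a := ![1, ⟨c1, hc1A⟩, ⟨c3, hc3A⟩, ⟨c1, hc1A⟩ * ⟨c3, hc3A⟩]
  have hf : Function.Injective f := by
    have e13 : c1 ≠ c3 := fun e => c13 (e ▸ hc3')
    have n : c1 * c3 ≠ 1 := fun e => e13 (by rw [eq_inv_of_mul_eq_one_left e, ZB_inv hc3'])
    intro i j hij
    have hij' := congrArg Subtype.val hij
    fin_cases i <;> fin_cases j <;> first
      | rfl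
      | (simp [f] at hij'; first
          | exact absurd hij' hc1n | exact absurd hij'.symm hc1n | exact absurd hij' hc3n
          | exact absurd hij'.symm hc3n | exact absurd hij' e13 | exact absurd hij'.symm e13
          | exact absurd hij' n | exact absurd hij'.symm n)
  have hf' : Function.Surjective f := by
    rintro ⟨u, hu'⟩
    obtain ⟨q1, hq1, q3, hq3, rfl⟩ := mem_ZA hA a1 C.adj23 C.ne13 hu'
    by_cases h1 : q1 = 1 <;> by_cases h3 : q3 = 1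
    · exact ⟨0, Subtype.ext (by simp [f, h1, h3])⟩
    · exact ⟨2, Subtype.ext (by simp [f, h1, hu _ C.B3 q3 hq3 c3 hc3' h3 hc3n])⟩
    · exact ⟨1, Subtype.ext (by simp [f, h3, hu _ C.B1 q1 hq1 c1 hc1' h1 hc1n])⟩
    · exact ⟨3, Subtype.ext (by
        simp [f, hu _ C.B3 q3 hq3 c3 hc3' h3 hc3n, hu _ C.B1 q1 hq1 c1 hc1' h1 hc1n])⟩
  have hZ4 : Nat.card (K.ZA a) = 4 := by
    rw [← Nat.card_eq_of_bijective f ⟨hf, hf'⟩, Nat.card_fin]
  have hZN : K.ZA a ≤ K.N2 a := fun u hu' => mem_iInf.2 fun v =>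
    VB_le_CV hK (bip_A v.2 hA) (le_iSup (fun c : {c : V // K.adj v.1 c} => K.ZA c.1) ⟨a, K.symm v.2⟩ hu')
  have hidx : (K.ZA a).relIndex (K.N2 a) ≤ 2 := by
    have h := relIndex_mul_relIndex ⊥ (K.ZA a) (K.N2 a) bot_le hZN
    rw [relIndex_bot_left, relIndex_bot_left, hZ4] at h
    omega
  have hprod : ∀ c ∈ K.N2 a, ∀ d ∈ K.N2 a, c ∉ K.ZA a → d ∉ K.ZA a → c * d ∈ K.ZA a := by
    intro c hc d hd nc nd
    have hpos : (K.ZA a).relIndex (K.N2 a) ≠ 0 := Subgroup.index_ne_zero_of_finite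
    rcases (show (K.ZA a).relIndex (K.N2 a) = 1 ∨ (K.ZA a).relIndex (K.N2 a) = 2 by omega) with e | e
    · exact absurd (relIndex_eq_one.1 e hc) nc
    · exact mem_subgroupOf.1 ((mul_mem_iff_of_index_two (H := (K.ZA a).subgroupOf (K.N2 a)) e
        (a := ⟨c, hc⟩) (b := ⟨d, hd⟩)).2
        (iff_of_false (fun h => nc (mem_subgroupOf.1 h)) (fun h => nd (mem_subgroupOf.1 h))))
  -- the commutators with an edge group
  have hnear : ∀ v, K.adj a v → ∀ g ∈ TE (G := G) a v, ∀ u ∈ K.N2 a, g * u * g⁻¹ * u⁻¹ ∈ K.ZB v := by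
    intro v hv
    obtain ⟨g0, hga, hgv⟩ := K.trans a (p 1) v a1 hv
    obtain ⟨t, h1, htT, htQ, h2⟩ := (C.smul g0).side hu hg
    have hz'T := (C.smul g0).z'T
    have hz'Q := (C.smul g0).hz'Q
    simp only [hgv, show g0 • p 2 = a from hga] at h1 htT htQ h2 hz'T hz'Q
    obtain ⟨w, hw, hwv⟩ := K.other a v hv
    obtain ⟨c, hc, hcn⟩ := ZB_ne_one (bip_A hw hA)
    have hcA := ZB_le_ZA hw hc
    have htm : t • a ≠ a := by
      refine K.move v (g0 • p 0) a ?_ (K.symm hv) ?_ t htT htQ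
      · rw [← hgv]; exact K.smul g0 C.adj10
      · intro e; exact C.ne02 (smul_left_cancel g0 (e.trans hga.symm))
    have hct : c * t ≠ t * c := fun e => hcn (ZB_inter hw hv hwv hc (ZA_inter (bip_A hv hA) (K.symm hv)
      (adj_fix htT.1 (K.symm hv)) htm.symm hcA (by
        have := conj_mem_ZA t hcA
        rwa [← e, mul_inv_cancel_right] at this)))
    intro g hg' u hu'
    -- a representative commuting with the second mover
    obtain ⟨b0, hb0, hbt, e0, he0, rfl⟩ :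
        ∃ b0 ∈ K.N2 a, b0 * t = t * b0 ∧ ∃ e0, (e0 = 1 ∨ e0 = c) ∧ u = b0 * e0 := by
      by_cases hut : u * t = t * u
      · exact ⟨u, hu', hut, 1, Or.inl rfl, (mul_one u).symm⟩
      · refine ⟨u * c, mul_mem hu' (hZN hcA), h2 u hu' c (hZN hcA) hut hct, c, Or.inr rfl, ?_⟩
        rw [mul_assoc, ZA_sq hcA, mul_one]
    have hnorm : ∀ q : G, q • a = a → q * b0 * q⁻¹ * b0⁻¹ ∈ K.ZA a := by
      intro q hq
      by_cases hb : b0 ∈ K.ZA a
      · exact mul_mem (conj_ZA_of_fix hq hb) (inv_mem hb)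
      · refine hprod _ (hconj hq b0 hb0) _ (inv_mem hb0) (fun h => hb ?_) (fun h => hb (inv_mem_iff.1 h))
        have := conj_ZA_of_fix (inv_fix hq) h
        rwa [show q⁻¹ * (q * b0 * q⁻¹) * q⁻¹⁻¹ = b0 by group] at this
    have hQ : ∀ q ∈ K.Q v, q * b0 * q⁻¹ * b0⁻¹ ∈ K.ZB v := by
      intro q hq
      have d1 := hnorm _ (Q_fix_adj (K.symm hv) hq)
      have d2 := hnorm (t⁻¹ * q * t) (by
        have := Q_fix_adj (K.symm hv) (conj_Q_of_fix (inv_fix htT.1) hq)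
        rwa [inv_inv] at this)
      have d3 := conj_mem_ZA t d2
      have e : t * (t⁻¹ * q * t * b0 * (t⁻¹ * q * t)⁻¹ * b0⁻¹) * t⁻¹ = q * b0 * q⁻¹ * b0⁻¹ := by
        calc t * (t⁻¹ * q * t * b0 * (t⁻¹ * q * t)⁻¹ * b0⁻¹) * t⁻¹ =
            q * (t * b0 * t⁻¹) * q⁻¹ * (t * b0 * t⁻¹)⁻¹ := by group
          _ = q * b0 * q⁻¹ * b0⁻¹ := by rw [← hbt, mul_inv_cancel_right]
      rw [e] at d3
      exact ZA_inter (bip_A hv hA) (K.symm hv) (adj_fix htT.1 (K.symm hv)) htm.symm d1 d3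
    have hb : g * b0 * g⁻¹ * b0⁻¹ ∈ K.ZB v := by
      by_cases hgQ : g ∈ K.Q v
      · exact hQ g hgQ
      · set s := g0 * z' * g0⁻¹ with hs
        have hq : g * s⁻¹ ∈ K.Q v := K.two v a (K.symm hv) g (T_comm hg') hgQ s⁻¹ (inv_mem hz'T)
          (fun h => hz'Q (inv_mem_iff.1 h))
        have h := hQ _ hq
        have e : g * s⁻¹ * b0 * (g * s⁻¹)⁻¹ = g * b0 * g⁻¹ := by
          have hsb : s⁻¹ * b0 * s = b0 := by rw [mul_assoc, h1 b0 hb0, inv_mul_cancel_left]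
          calc g * s⁻¹ * b0 * (g * s⁻¹)⁻¹ = g * (s⁻¹ * b0 * s) * g⁻¹ := by group
            _ = g * b0 * g⁻¹ := by rw [hsb]
        rwa [e] at h
    have hb0v : b0 • v = v := Q_fix (CV_le (hNle v hv hb0))
    rcases he0 with rfl | rfl
    · rwa [mul_one]
    · have he : g * e0 * g⁻¹ * e0⁻¹ ∈ K.ZB v := by
        rw [ZA_inv hcA, ← Q_comm_ZA (ZA_le_Q hcA) (conj_ZA_of_fix hg'.1 hcA)]
        exact phi hA hv hg' hcA
      rw [show g * (b0 * e0) * g⁻¹ * (b0 * e0)⁻¹ = (g * b0 * g⁻¹) * (g * e0 * g⁻¹ * e0⁻¹) * b0⁻¹ by group,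
        mul_assoc, ← he.2.2 b0⁻¹ (inv_fix hb0v), ← mul_assoc]
      exact mul_mem hb he
  have hN4 : Nat.card (K.N2 a) ≤ 4 := by
    by_contra h
    obtain ⟨u, huN, huZ⟩ : ∃ u ∈ K.N2 a, u ∉ K.ZA a := by
      by_contra! hh
      rw [le_antisymm hh hZN, hZ4] at h
      omega
    obtain ⟨t1, ht1, ht1Q⟩ := exists_T_not_Q a1
    obtain ⟨t3, ht3, ht3Q⟩ := exists_T_not_Q C.adj23
    have pick : ∀ v v', K.adj a v → K.adj a v' → v ≠ v' → ∀ t ∈ TE (G := G) a v, t ∉ K.Q a →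
        ∀ u ∈ K.N2 a, ∃ e ∈ K.ZB v', t * (u * e) = u * e * t := by
      intro v v' hv hv' hne t ht htQ u hu'
      have d := hnear v hv t ht u hu'
      by_cases hd : t * u * t⁻¹ * u⁻¹ = 1
      · rw [mul_inv_eq_one, mul_inv_eq_iff_eq_mul] at hd
        exact ⟨1, one_mem _, by rw [mul_one]; exact hd⟩
      obtain ⟨c, hc, hcn⟩ := ZB_ne_one (bip_A hv' hA)
      have hcA := ZB_le_ZA hv' hc
      have dc := hnear v hv t ht c (hZN hcA)
      have hdc : t * c * t⁻¹ * c⁻¹ ≠ 1 := fun e => hcn (ZB_inter hv hv' hne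
        (fixed_ZA hA hv ht htQ hcA (by rwa [mul_inv_eq_one, mul_inv_eq_iff_eq_mul] at e)) hc)
      have e := hu v (bip_A hv hA) _ d _ dc hd hdc
      refine ⟨c, hc, ?_⟩
      have hfix : u • v = v := Q_fix (CV_le (hNle v hv hu'))
      set D := t * c * t⁻¹ * c⁻¹ with hD
      calc t * (u * c) = (t * u * t⁻¹ * u⁻¹) * u * (D * c) * t := by rw [hD]; group
        _ = D * u * (D * c) * t := by rw [e]
        _ = u * D * (D * c) * t := by rw [dc.2.2 u hfix]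
        _ = u * (D * D) * c * t := by group
        _ = u * c * t := by rw [dc.2.1, mul_one]
    obtain ⟨e3, he3, ht1c⟩ := pick (p 1) (p 3) a1 C.adj23 C.ne13 t1 ht1 ht1Q u huN
    obtain ⟨e1, he1, ht3c⟩ := pick (p 3) (p 1) C.adj23 a1 C.ne13.symm t3 ht3 ht3Q (u * e3)
      (mul_mem huN (hZN (ZB_le_ZA C.adj23 he3)))
    set u' := u * e3 * e1 with hu'
    have hu'N : u' ∈ K.N2 a :=
      mul_mem (mul_mem huN (hZN (ZB_le_ZA C.adj23 he3))) (hZN (ZB_le_ZA a1 he1))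
    have ht1' : t1 * u' = u' * t1 := by
      rw [hu', ← mul_assoc, ht1c, mul_assoc, he1.2.2 t1 ht1.2, ← mul_assoc]
    have hQc : K.Q a ≤ centralizer ({u'} : Set G) := fun q hq => by
      have v1 := hnear (p 1) a1 q (Q_le_T a1 hq) u' hu'N
      have v3 := hnear (p 3) C.adj23 q (Q_le_T C.adj23 hq) u' hu'N
      have h := ZB_inter a1 C.adj23 C.ne13 v1 v3
      rw [mul_inv_eq_one, mul_inv_eq_iff_eq_mul] at h
      exact mem_centralizer_singleton_iff.2 h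
    have hst : stabilizer G a ≤ centralizer ({u'} : Set G) := by
      rw [← K.gen a (p 1) (p 3) a1 C.adj23 C.ne13]
      exact sup_le (le_of_gen a1 hQc ht1 ht1Q (mem_centralizer_singleton_iff.2 ht1'))
        (le_of_gen C.adj23 hQc ht3 ht3Q (mem_centralizer_singleton_iff.2 ht3c))
    have hcent : ∀ g : G, g • a = a → g * u' = u' * g := fun g hg' => mem_centralizer_singleton_iff.1 (hst hg')
    have hu'Z : u' ∉ K.ZA a := fun h => huZ (by
      have := mul_mem (mul_mem h (inv_mem (ZB_le_ZA a1 he1))) (inv_mem (ZB_le_ZA C.adj23 he3))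
      rwa [hu', mul_inv_cancel_right, mul_inv_cancel_right] at this)
    have hsq := hprod u' hu'N u' hu'N hu'Z hu'Z
    have hu'a : u' • a = a := (hNT hu'N).1
    have hsq1 : u' * u' = 1 := ZA_no_center hA ⟨mul_fix hu'a hu'a, ZA_sq hsq, fun g hg' => by
      rw [← mul_assoc, hcent g hg', mul_assoc, hcent g hg', ← mul_assoc]⟩
    exact hu'Z (by rw [ZA_no_center hA ⟨hu'a, hsq1, hcent⟩]; exact one_mem _)
  -- the index of the common part
  rw [Q_card_all u0 (p 1), ← relIndex_bot_left, ← relIndex_mul_relIndex ⊥ (K.N2 a) (K.Q (p 1)) bot_le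
    ((hNle _ a1).trans CV_le), relIndex_bot_left]
  refine (Nat.mul_le_mul hN4 (?_ : (K.N2 a).relIndex (K.Q (p 1)) ≤ 4 * 4)).trans (le_refl 64)
  rw [← relIndex_mul_relIndex (K.N2 a) (K.CV (p 1)) (K.Q (p 1)) (hNle _ a1) CV_le]
  refine Nat.mul_le_mul ?_ ?_
  · have e : K.N2 a = K.Q y ⊓ (K.Q (p 3) ⊓ K.CV (p 1)) := by
      rw [← C.N2_eq hu hg]
      refine le_antisymm (fun g hg' => ⟨CV_le_adj C.adjy hg'.2, CV_le hg'.2, hg'.1⟩) fun g hg' => ?_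
      obtain ⟨hgy, hg3, hg1⟩ := hg'
      refine ⟨hg1, mem_CV.2 ⟨hg3, fun c hc => ?_⟩⟩
      by_contra hcQ
      have hcy : c ≠ y := fun e => hcQ (e ▸ hgy)
      have hc2 : c ≠ p 2 := fun e => hcQ (e ▸ CV_le_adj C.adj12 hg1)
      exact (even_at hg C.B3 (K.symm C.adj23) C.adjy hc C.ne.symm hc2.symm hcy.symm hg3 hcQ).1
        (CV_le_adj C.adj12 hg1) hgy
    rw [← relIndex_mul_relIndex (K.N2 a) (K.Q (p 3) ⊓ K.CV (p 1)) (K.CV (p 1)) (e.le.trans inf_le_right) inf_le_right]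
    refine (Nat.mul_le_mul (n₂ := 2) (m₂ := 2) ?_ ?_).trans (le_refl 4)
    · rw [e, inf_relIndex_right]
      exact half (K.symm C.adjy) fun g hg' => ⟨Q_fix_adj C.adjy hg'.1, Q_fix hg'.1⟩
    · rw [inf_relIndex_right]
      exact half (K.symm C.adj23) fun g hg' =>
        ⟨Q_fix_adj C.adj23 (CV_le_adj C.adj12 hg'), Q_fix (CV_le_adj C.adj12 hg')⟩
  · have e : K.CV (p 1) = K.Q (p 0) ⊓ K.Q a ⊓ K.Q (p 1) := by
      refine le_antisymm (le_inf (le_inf (CV_le_adj C.adj10) (CV_le_adj C.adj12)) CV_le) fun g hg' => ?_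
      refine mem_CV.2 ⟨hg'.2, fun c hc => ?_⟩
      by_contra hcQ
      have hc0 : c ≠ p 0 := fun e => hcQ (e ▸ hg'.1.1)
      have hc2 : c ≠ a := fun e => hcQ (e ▸ hg'.1.2)
      exact (even_at hg C.B1 C.adj10 C.adj12 hc C.ne02 hc0.symm hc2.symm hg'.2 hcQ).1 hg'.1.1 hg'.1.2
    rw [e, inf_relIndex_right]
    exact relIndex_inf_le.trans ((Nat.mul_le_mul (n₂ := 2) (m₂ := 2)
      (half (K.symm C.adj10) fun g hg' => ⟨Q_fix_adj C.adj10 hg', Q_fix hg'⟩)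
      (half a1 fun g hg' => ⟨Q_fix_adj C.adj12 hg', Q_fix hg'⟩)).trans (le_refl 4))

end Gold

end Cfsg.Agent.Lib.GoldAmalgam
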