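import Cfsg.Agent.Lib.GoldAmalgam.Long
import Cfsg.Agent.Lib.GoldAmalgam.Even
import Cfsg.Agent.Lib.GoldAmalgam.Three
import Cfsg.Agent.Lib.S3Amalgam.Base

/-!
The graph of an amalgam with one central module, and the bound on the edge group.
-/

set_option autoImplicit false

namespace Cfsg.Agent.Lib.GoldAmalgam

open Subgroup MulAction
open Cfsg.Agent.Lib.S3Amalgam (inv2 TE QV EdgeRel TE_smul QV_smul mem_map_conj inj4)

variable {G : Type*} [Group G] {V : Type*} [MulAction G V]

namespace Gold

/-- The bound. -/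
theorem bound (K : Gold G V) {v u : V} (h : K.adj v u) : Nat.card (TE (G := G) v u) ≤ 2 ^ 7 := by
  obtain ⟨w, hw⟩ : ∃ w, ¬ K.isA w := by
    by_cases hv : K.isA v
    · exact ⟨u, bip_A h hv⟩
    · exact ⟨v, hv⟩
  obtain ⟨b, hK, p, hp⟩ := exists_crit hw
  rw [K.cardT v u h]
  have key : Nat.card (K.Q v) ≤ 64 := by
    have hb1 := crit_pos hp
    rcases Nat.even_or_odd b with he | ho
    · rcases Nat.lt_or_ge b 4 with hlt | hge
      · obtain ⟨k, hk⟩ := he
        obtain rfl : b = 2 := by omega
        exact b_two hK hp v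
      · exact (no_even hK he hge hp).elim
    · obtain ⟨k, hk⟩ := ho
      rcases (show b = 1 ∨ b = 3 ∨ 5 ≤ b by omega) with rfl | rfl | h5
      · exact b_one hK hp v
      · exact b_three (uni hK ⟨1, rfl⟩ le_rfl hp) hK hp v
      · have ho : Odd b := ⟨k, hk⟩
        have hu := uni hK ho (by omega) hp
        by_cases hg : K.Good
        · exact (no_good_long hK ho h5 hu hg hp).elim
        · exact (no_even_long hK ho h5 hu hg hp).elim
  have : QV (G := G) K.adj v = K.Q v := rfl
  rw [this]
  omega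

end Gold

/-- The local hypotheses at an edge. -/
structure Loc (adj : V → V → Prop) (v u : V) : Prop where
  fin : Finite (stabilizer G v)
  c3 : Nat.card (stabilizer G v) = 3 * Nat.card (TE (G := G) v u)
  nn : ∃ g ∈ stabilizer G v, ∃ x ∈ TE (G := G) v u, g * x * g⁻¹ ∉ TE (G := G) v u
  c2 : Nat.card (TE (G := G) v u) = 2 * Nat.card (QV (G := G) adj v)
  cent : ∀ x ∈ stabilizer G v, (∀ q ∈ QV (G := G) adj v, q * x = x * q) → x ∈ QV adj v
  two : IsPGroup 2 (TE (G := G) v u)

variable {adj : V → V → Prop}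

theorem Loc.smul (hadj : ∀ (g : G) {u w}, adj u w → adj (g • u) (g • w)) {v u : V} (h : Loc (G := G) adj v u)
    (g : G) : Loc (G := G) adj (g • v) (g • u) := by
  have hinj : Function.Injective (MulAut.conj g).toMonoidHom := (MulAut.conj g).injective
  have hs := stabilizer_smul_eq_stabilizer_map_conj g v
  have hc : ∀ H : Subgroup G, Nat.card (H.map (MulAut.conj g).toMonoidHom) = Nat.card H := fun H =>
    (Nat.card_congr (H.equivMapOfInjective _ hinj).toEquiv).symm
  refine ⟨?_, ?_, ?_, ?_, ?_, ?_⟩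
  · haveI := h.fin
    rw [hs]
    exact Finite.of_equiv _ ((stabilizer G v).equivMapOfInjective _ hinj).toEquiv
  · rw [hs, TE_smul, hc, hc]
    exact h.c3
  · obtain ⟨k, hk, x, hx, hn⟩ := h.nn
    refine ⟨g * k * g⁻¹, ?_, g * x * g⁻¹, ?_, ?_⟩
    · rw [hs, mem_map_conj]
      simpa [mul_assoc] using hk
    · rw [TE_smul, mem_map_conj]
      simpa [mul_assoc] using hx
    · rw [TE_smul, mem_map_conj]
      simpa [mul_assoc] using hn
  · rw [TE_smul, QV_smul hadj, hc, hc]
    exact h.c2
  · intro x hx hxc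
    rw [hs, mem_map_conj] at hx
    rw [QV_smul hadj, mem_map_conj]
    refine h.cent _ hx fun q hq => ?_
    have := hxc (g * q * g⁻¹) (by rw [QV_smul hadj, mem_map_conj]; simpa [mul_assoc] using hq)
    calc q * (g⁻¹ * x * g) = g⁻¹ * ((g * q * g⁻¹) * x) * g := by group
      _ = g⁻¹ * (x * (g * q * g⁻¹)) * g := by rw [this]
      _ = g⁻¹ * x * g * q := by group
  · rw [TE_smul]
    exact h.two.map _


theorem Loc.index3 {v u : V} (h : Loc (G := G) adj v u) : (TE (G := G) v u).relIndex (stabilizer G v) = 3 := by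
  haveI := h.fin
  haveI : Finite (TE (G := G) v u) := Finite.Set.subset (stabilizer G v : Set G) inf_le_left
  have h1 : Nat.card ((TE (G := G) v u).subgroupOf (stabilizer G v)) *
      (TE (G := G) v u).relIndex (stabilizer G v) = Nat.card (stabilizer G v) := Subgroup.card_mul_index _
  rw [Nat.card_congr (subgroupOfEquivOfLe (inf_le_left : TE (G := G) v u ≤ stabilizer G v)).toEquiv, h.c3] at h1
  exact Nat.eq_of_mul_eq_mul_left Nat.card_pos (h1.trans (mul_comm _ _))

theorem Loc.maximal {v u : V} (h : Loc (G := G) adj v u) {H : Subgroup G} (h1 : TE v u ≤ H)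
    (h2 : H ≤ stabilizer G v) (h3 : ¬ H ≤ TE v u) : H = stabilizer G v := by
  have e := relIndex_mul_relIndex _ _ _ h1 h2
  rw [h.index3] at e
  rcases (Nat.prime_three.eq_one_or_self_of_dvd _ (Dvd.intro _ e)) with e1 | e1
  · exact absurd (relIndex_eq_one.1 e1) h3
  · rw [e1] at e
    exact le_antisymm h2 (relIndex_eq_one.1 (by omega))

theorem Loc.mul_mem {v u : V} (h : Loc (G := G) adj v u) (hle : QV (G := G) adj v ≤ TE v u) {x y : G}
    (hx : x ∈ TE (G := G) v u) (hxQ : x ∉ QV (G := G) adj v) (hy : y ∈ TE (G := G) v u)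
    (hyQ : y ∉ QV (G := G) adj v) : x * y ∈ QV (G := G) adj v := by
  haveI := h.fin
  haveI : Finite (TE (G := G) v u) := Finite.Set.subset (stabilizer G v : Set G) inf_le_left
  haveI : Finite (QV (G := G) adj v) := Finite.Set.subset (TE (G := G) v u : Set G) hle
  have h1 : Nat.card ((QV (G := G) adj v).subgroupOf (TE v u)) * ((QV (G := G) adj v).subgroupOf (TE v u)).index =
      Nat.card (TE (G := G) v u) := Subgroup.card_mul_index _
  rw [Nat.card_congr (subgroupOfEquivOfLe hle).toEquiv, h.c2] at h1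
  have hi : ((QV (G := G) adj v).subgroupOf (TE v u)).index = 2 :=
    Nat.eq_of_mul_eq_mul_left Nat.card_pos (h1.trans (mul_comm _ _))
  have := (Subgroup.mul_mem_iff_of_index_two hi (a := ⟨x, hx⟩) (b := ⟨y, hy⟩)).2
    (iff_of_false (fun e => hxQ (mem_subgroupOf.1 e)) (fun e => hyQ (mem_subgroupOf.1 e)))
  exact mem_subgroupOf.1 this

/-- The graph of an amalgam. -/
def mkGold (a b : V) (hab : ∀ g : G, g • a ≠ b) (horb : ∀ w : V, (∃ g : G, g • a = w) ∨ (∃ g : G, g • b = w))
    (la : Loc (G := G) (EdgeRel (G := G) a b) a b) (lb : Loc (G := G) (EdgeRel (G := G) a b) b a)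
    (hbot : ∀ N : Subgroup G, N ≤ TE a b → stabilizer G a ≤ normalizer (N : Set G) →
      stabilizer G b ≤ normalizer (N : Set G) → N = ⊥)
    (hcen : ∀ x ∈ inv2 (TE (G := G) b a), ∀ g ∈ stabilizer G b, g * x = x * g)
    (hconn : ∀ U : Set V, (∃ v, v ∈ U) → (∀ v ∈ U, ∀ u, EdgeRel (G := G) a b v u → u ∈ U) → ∀ v, v ∈ U)
    (hfaith : ∀ x : G, (∀ v : V, x • v = v) → x = 1) : Gold G V :=
  have hsmul : ∀ (g : G) {u v}, EdgeRel (G := G) a b u v → EdgeRel (G := G) a b (g • u) (g • v) := by
    rintro g u v ⟨k, ⟨rfl, rfl⟩ | ⟨rfl, rfl⟩⟩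
    · exact ⟨g * k, Or.inl ⟨(mul_smul _ _ _).symm, (mul_smul _ _ _).symm⟩⟩
    · exact ⟨g * k, Or.inr ⟨(mul_smul _ _ _).symm, (mul_smul _ _ _).symm⟩⟩
  have hloc : ∀ {v u}, EdgeRel (G := G) a b v u → Loc (G := G) (EdgeRel (G := G) a b) v u := by
    rintro v u ⟨k, ⟨rfl, rfl⟩ | ⟨rfl, rfl⟩⟩
    · exact la.smul (fun g => hsmul g) k
    · exact lb.smul (fun g => hsmul g) k
  have htrans : ∀ v u w, EdgeRel (G := G) a b v u → EdgeRel (G := G) a b v w → ∃ g : G, g • v = v ∧ g • u = w := by
    rintro v u w ⟨k, ⟨rfl, rfl⟩ | ⟨rfl, rfl⟩⟩ ⟨l, ⟨e, rfl⟩ | ⟨e, rfl⟩⟩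
    · exact ⟨l * k⁻¹, by rw [mul_smul, inv_smul_smul, ← e], by rw [mul_smul, inv_smul_smul]⟩
    · exact absurd (by rw [mul_smul, e, inv_smul_smul] : (l⁻¹ * k) • a = b) (hab _)
    · exact absurd (by rw [mul_smul, ← e, inv_smul_smul] : (k⁻¹ * l) • a = b) (hab _)
    · exact ⟨l * k⁻¹, by rw [mul_smul, inv_smul_smul, ← e], by rw [mul_smul, inv_smul_smul]⟩
  have hcard : ∀ v u, EdgeRel (G := G) a b v u → Nat.card {y // EdgeRel (G := G) a b v y} = 3 := by
    intro v u h
    have he : {y | EdgeRel (G := G) a b v y} = orbit (stabilizer G v) u := by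
      ext y
      constructor
      · intro hy
        obtain ⟨g, hg, e⟩ := htrans v u y h hy
        exact ⟨⟨g, hg⟩, e⟩
      · rintro ⟨g, rfl⟩
        have := hsmul (g : G) h
        rwa [mem_stabilizer_iff.1 g.2] at this
    have hst : stabilizer (stabilizer G v) u = (TE (G := G) v u).subgroupOf (stabilizer G v) := by
      ext g
      rw [mem_subgroupOf, Subgroup.mem_inf, mem_stabilizer_iff]
      exact ⟨fun e => ⟨g.2, e⟩, fun e => e.2⟩
    rw [show {y // EdgeRel (G := G) a b v y} = ↥({y | EdgeRel (G := G) a b v y}) from rfl, he,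
      Nat.card_congr (orbitEquivQuotientStabilizer (stabilizer G v) u), hst, ← index_eq_card]
    exact (hloc h).index3
  have hmem : ∀ {v u}, EdgeRel (G := G) a b v u → QV (G := G) (EdgeRel (G := G) a b) v ≤ TE v u :=
    fun {v u} h => iInf_le (fun w : {w : V // EdgeRel (G := G) a b v w} => TE (G := G) v w.1) ⟨u, h⟩
  have hbot' : ∀ u v, EdgeRel (G := G) a b u v → ∀ N : Subgroup G, N ≤ TE u v →
      stabilizer G u ≤ normalizer (N : Set G) → stabilizer G v ≤ normalizer (N : Set G) → N = ⊥ := by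
    have key : ∀ (k : G) (N : Subgroup G), N ≤ TE (k • a) (k • b) → stabilizer G (k • a) ≤ normalizer (N : Set G) →
        stabilizer G (k • b) ≤ normalizer (N : Set G) → N = ⊥ := by
      intro k N hN n1 n2
      set M := N.map (MulAut.conj k⁻¹).toMonoidHom with hM
      have hnorm : ∀ x : V, stabilizer G (k • x) ≤ normalizer (N : Set G) →
          stabilizer G x ≤ normalizer (M : Set G) := by
        intro x hx g hg
        have h1 : k * g * k⁻¹ ∈ stabilizer G (k • x) := by
          rw [stabilizer_smul_eq_stabilizer_map_conj, mem_map_conj]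
          simpa [mul_assoc] using hg
        refine mem_normalizer_iff.2 fun y => ?_
        rw [hM, mem_map_conj, mem_map_conj, inv_inv]
        have h2 := mem_normalizer_iff.1 (hx h1) (k * y * k⁻¹)
        rw [h2, show k * g * k⁻¹ * (k * y * k⁻¹) * (k * g * k⁻¹)⁻¹ = k * (g * y * g⁻¹) * k⁻¹ by group]
      have := hbot M (fun y hy => ?_) (hnorm a n1) (hnorm b n2)
      · exact (map_eq_bot_iff_of_injective _ (MulAut.conj k⁻¹).injective).1 this
      · rw [hM, mem_map_conj, inv_inv] at hy
        have := hN hy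
        rw [TE_smul, mem_map_conj] at this
        simpa [mul_assoc] using this
    rintro u v ⟨k, ⟨rfl, rfl⟩ | ⟨rfl, rfl⟩⟩ N hN n1 n2
    · exact key k N hN n1 n2
    · exact key k N (hN.trans (inf_comm _ _).le) n2 n1
  { adj := EdgeRel (G := G) a b
    isA := fun v => ∃ g : G, g • a = v
    isA_smul := fun g v => ⟨fun ⟨k, e⟩ => ⟨g⁻¹ * k, by rw [mul_smul, e, inv_smul_smul]⟩,
      fun ⟨k, e⟩ => ⟨g * k, by rw [mul_smul, e]⟩⟩
    bip := by
      rintro u v ⟨k, ⟨rfl, rfl⟩ | ⟨rfl, rfl⟩⟩
      · refine iff_of_false ?_ fun h => h ⟨k, rfl⟩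
        rintro ⟨g, e⟩
        exact hab (k⁻¹ * g) (by rw [mul_smul, e, inv_smul_smul])
      · refine iff_of_true ⟨k, rfl⟩ ?_
        rintro ⟨g, e⟩
        exact hab (k⁻¹ * g) (by rw [mul_smul, e, inv_smul_smul])
    exists_adj := fun v => by
      rcases horb v with ⟨g, rfl⟩ | ⟨g, rfl⟩
      · exact ⟨g • b, g, Or.inl ⟨rfl, rfl⟩⟩
      · exact ⟨g • a, g, Or.inr ⟨rfl, rfl⟩⟩
    atrans := fun u v ⟨g, hg⟩ ⟨k, hk⟩ => ⟨k * g⁻¹, by rw [← hg, mul_smul, inv_smul_smul, hk]⟩
    fin := fun v u h => by
      haveI := (hloc h).fin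
      exact Finite.Set.subset (stabilizer G v : Set G) inf_le_left
    pgroup := fun v u h => (hloc h).two
    cardT := fun v u h => (hloc h).c2
    cent := fun v => by
      rcases horb v with ⟨g, rfl⟩ | ⟨g, rfl⟩
      · exact (hloc (u := g • b) ⟨g, Or.inl ⟨rfl, rfl⟩⟩).cent
      · exact (hloc (u := g • a) ⟨g, Or.inr ⟨rfl, rfl⟩⟩).cent
    central := by
      rintro v u hv ⟨k, ⟨rfl, rfl⟩ | ⟨rfl, rfl⟩⟩ x hx g hg
      · exact absurd ⟨k, rfl⟩ hv
      · have h1 := S3Amalgam.Ctx.conj_mem_inv2T k⁻¹ hx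
        rw [inv_smul_smul, inv_smul_smul, inv_inv] at h1
        have h2 : k⁻¹ * g * k ∈ stabilizer G b := by
          rw [mem_stabilizer_iff, mul_smul, mul_smul, mem_stabilizer_iff.1 hg, inv_smul_smul]
        have h3 := hcen _ h1 _ h2
        calc g * x = k * ((k⁻¹ * g * k) * (k⁻¹ * x * k)) * k⁻¹ := by group
          _ = k * ((k⁻¹ * x * k) * (k⁻¹ * g * k)) * k⁻¹ := by rw [h3]
          _ = x * g := by group
    conn := hconn
    faithful := hfaith
    symm := fun ⟨g, h⟩ => ⟨g, h.symm.imp And.symm And.symm⟩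
    smul := fun g => hsmul g
    third := fun v u w hu hw hne => by
      have h3 := hcard v u hu
      have : Finite {y // EdgeRel (G := G) a b v y} := Nat.finite_of_card_ne_zero (by omega)
      obtain ⟨x, hxu, hxw⟩ : ∃ x : {y // EdgeRel (G := G) a b v y}, x ≠ ⟨u, hu⟩ ∧ x ≠ ⟨w, hw⟩ := by
        by_contra! hno
        have : Nat.card {y // EdgeRel (G := G) a b v y} ≤ Nat.card Bool := by
          refine Nat.card_le_card_of_surjective (fun c => bif c then ⟨u, hu⟩ else ⟨w, hw⟩) fun x => ?_
          by_cases e : x = ⟨u, hu⟩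
          · exact ⟨true, e.symm⟩
          · exact ⟨false, (hno x e).symm⟩
        rw [Nat.card_eq_fintype_card (α := Bool), Fintype.card_bool] at this
        omega
      refine ⟨x, x.2, fun e => hxu (Subtype.ext e), fun e => hxw (Subtype.ext e), fun y hy => ?_⟩
      by_contra! hno
      let f : Fin 4 → {y // EdgeRel (G := G) a b v y} := ![⟨u, hu⟩, ⟨w, hw⟩, x, ⟨y, hy⟩]
      have hf : Function.Injective f := by
        have hne' : (⟨u, hu⟩ : {y // EdgeRel (G := G) a b v y}) ≠ ⟨w, hw⟩ := fun e => hne (congrArg Subtype.val e)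
        have e1 : (⟨y, hy⟩ : {y // EdgeRel (G := G) a b v y}) ≠ ⟨u, hu⟩ := fun e => hno.1 (congrArg Subtype.val e)
        have e2 : (⟨y, hy⟩ : {y // EdgeRel (G := G) a b v y}) ≠ ⟨w, hw⟩ := fun e => hno.2.1 (congrArg Subtype.val e)
        have e3 : (⟨y, hy⟩ : {y // EdgeRel (G := G) a b v y}) ≠ x := fun e => hno.2.2 (congrArg Subtype.val e)
        exact inj4 hne' hxu.symm e1.symm hxw.symm e2.symm e3.symm
      have := Nat.card_le_card_of_injective f hf
      rw [Nat.card_fin, h3] at this
      omega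
    other := fun v u hu => by
      have h3 := hcard v u hu
      by_contra! hno
      have : Subsingleton {y // EdgeRel (G := G) a b v y} :=
        ⟨fun x y => Subtype.ext ((hno x x.2).trans (hno y y.2).symm)⟩
      have := Finite.card_le_one_iff_subsingleton.2 this
      omega
    gen := fun v u w hu hw hne => by
      refine (hloc hu).maximal le_sup_left (sup_le inf_le_left inf_le_left) fun hle => hne ?_
      have hle' : TE (G := G) v w ≤ TE v u := le_sup_right.trans hle
      obtain ⟨g, hg, e⟩ := htrans v u w hu hw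
      have hgn : g ∈ normalizer (TE (G := G) v u : Set G) := by
        haveI := (hloc hu).fin
        haveI : Finite (TE (G := G) v u) := Finite.Set.subset (stabilizer G v : Set G) inf_le_left
        have hm : (TE (G := G) v u).map (MulAut.conj g).toMonoidHom = TE v u := by
          refine eq_of_le_of_card_ge ?_ ?_
          · rw [← TE_smul, hg, e]
            exact hle'
          · rw [Nat.card_congr ((TE (G := G) v u).equivMapOfInjective (MulAut.conj g).toMonoidHom (MulAut.conj g).injective).toEquiv]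
        refine mem_normalizer_iff.2 fun x => ?_
        constructor
        · exact fun hx => hm.le ⟨x, hx, rfl⟩
        · intro hx
          have := hm.ge hx
          rw [mem_map_conj] at this
          simpa [mul_assoc] using this
      by_contra hne'
      have hgT : g ∉ TE (G := G) v u := fun h => hne' (((mem_stabilizer_iff.1 h.2).symm.trans e))
      have hmax := (hloc hu).maximal (H := normalizer (TE (G := G) v u : Set G) ⊓ stabilizer G v)
        (le_inf le_normalizer inf_le_left) inf_le_right fun h => hgT (h ⟨hgn, hg⟩)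
      obtain ⟨k, hk, x, hx, hn⟩ := (hloc hu).nn
      exact hn ((mem_normalizer_iff.1 (hmax.ge hk).1 x).1 hx)
    trans := htrans
    two := fun v u hu x hx hxQ y hy hyQ => (hloc hu).mul_mem (hmem hu) hx hxQ hy hyQ
    move := fun v u w hu hw hne x hx hxQ e => hxQ (mem_iInf.2 fun y => by
      refine ⟨hx.1, ?_⟩
      show x ∈ stabilizer G y.1
      rw [mem_stabilizer_iff]
      by_contra hmove
      have hy' : EdgeRel (G := G) a b v (x • y.1) := by
        have := hsmul x y.2
        rwa [mem_stabilizer_iff.1 hx.1] at this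
      have hyu : y.1 ≠ u := fun e' => hmove (by rw [e']; exact mem_stabilizer_iff.1 hx.2)
      have hyw : y.1 ≠ w := fun e' => hmove (by rw [e', e])
      have hxu : x • y.1 ≠ u := fun e' => hyu (smul_left_cancel x (e'.trans (mem_stabilizer_iff.1 hx.2).symm))
      have hxw : x • y.1 ≠ w := fun e' => hyw (smul_left_cancel x (e'.trans e.symm))
      have h3 := hcard v u hu
      have : Finite {y // EdgeRel (G := G) a b v y} := Nat.finite_of_card_ne_zero (by omega)
      let f : Fin 4 → {y // EdgeRel (G := G) a b v y} := ![⟨u, hu⟩, ⟨w, hw⟩, y, ⟨_, hy'⟩]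
      have hf : Function.Injective f := by
        have e0 : (⟨u, hu⟩ : {y // EdgeRel (G := G) a b v y}) ≠ ⟨w, hw⟩ := fun e' => hne (congrArg Subtype.val e')
        have e1 : y ≠ ⟨u, hu⟩ := fun e' => hyu (congrArg Subtype.val e')
        have e2 : y ≠ ⟨w, hw⟩ := fun e' => hyw (congrArg Subtype.val e')
        have e3 : (⟨_, hy'⟩ : {y // EdgeRel (G := G) a b v y}) ≠ ⟨u, hu⟩ := fun e' => hxu (congrArg Subtype.val e')
        have e4 : (⟨_, hy'⟩ : {y // EdgeRel (G := G) a b v y}) ≠ ⟨w, hw⟩ := fun e' => hxw (congrArg Subtype.val e')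
        have e5 : (⟨_, hy'⟩ : {y // EdgeRel (G := G) a b v y}) ≠ y := fun e' => hmove (congrArg Subtype.val e')
        exact inj4 e0 e1.symm e3.symm e2.symm e4.symm e5.symm
      have := Nat.card_le_card_of_injective f hf
      rw [Nat.card_fin, h3] at this
      omega)
    qne := fun u v h => by
      by_contra! hle
      have hsym : EdgeRel (G := G) a b v u := ⟨h.choose, h.choose_spec.symm.imp And.symm And.symm⟩
      haveI := (hloc h).fin
      haveI : Finite (TE (G := G) u v) := Finite.Set.subset (stabilizer G u : Set G) inf_le_left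
      haveI : Finite (QV (G := G) (EdgeRel (G := G) a b) v) :=
        Finite.Set.subset (TE (G := G) u v : Set G) ((hmem hsym).trans (inf_comm _ _).le)
      have he : QV (G := G) (EdgeRel (G := G) a b) u = QV (G := G) (EdgeRel (G := G) a b) v := by
        refine eq_of_le_of_card_ge hle ?_
        have := (hloc h).c2
        have h2 := (hloc hsym).c2
        rw [S3Amalgam.Ctx.T_comm] at h2
        omega
      have hn : ∀ w, stabilizer G w ≤ normalizer (QV (G := G) (EdgeRel (G := G) a b) w : Set G) := by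
        intro w g hg
        refine mem_normalizer_iff.2 fun x => ?_
        have := QV_smul (adj := EdgeRel (G := G) a b) (fun g => hsmul g) g w
        rw [mem_stabilizer_iff.1 hg] at this
        conv_rhs => rw [this, mem_map_conj, show g⁻¹ * (g * x * g⁻¹) * g = x by group]
      have hb := hbot' u v h _ (hmem h) (hn u) (he ▸ hn v)
      have h6 := (hloc h).c3
      rw [(hloc h).c2, hb, card_bot] at h6
      have hsq : stabilizer G u ≤ QV (G := G) (EdgeRel (G := G) a b) u := fun x hx =>
        (hloc h).cent x hx fun q hq => by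
          rw [hb, mem_bot] at hq
          rw [hq, one_mul, mul_one]
      haveI : Finite (QV (G := G) (EdgeRel (G := G) a b) u) := Finite.Set.subset (TE (G := G) u v : Set G) (hmem h)
      have := card_le_of_le hsq
      rw [h6, hb, card_bot] at this
      omega }

end Cfsg.Agent.Lib.GoldAmalgam
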