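import Cfsg.Agent.Lib.GoldAmalgam.Odd

/-!
An odd critical distance: the modules have order four; the commutator of a critical pair.
-/

set_option autoImplicit false

namespace Cfsg.Agent.Lib.GoldAmalgam

open Subgroup MulAction
open Cfsg.Agent.Lib.S3Amalgam (inv2 TE QV)

variable {G : Type*} [Group G] {V : Type*} [MulAction G V]

namespace Gold

variable {K : Gold G V}

theorem ZB_end {b : ℕ} (hK : K.Below b) (hb3 : 3 ≤ b) {p : ℕ → V} (hp : K.Crit p b) {x : G}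
    (hx : x ∈ K.ZB (p 1)) : x ∈ K.Q (p b) := by
  have h2 := hK (b - 2) (by omega) (fun i => p (i + 2)) (walk_drop hp.1)
    ((isA_of hp.1 hp.2.1 (show 0 + 2 ≤ b by omega)).2 (by decide))
  simp only [zero_add, show b - 2 + 2 = b by omega] at h2
  exact h2 (ZB_le_ZA (K.symm (hp.1 1 (by omega))) hx)

theorem comm_walk {b : ℕ} (hK : K.Below b) {p : ℕ → V} {n : ℕ} (hp : K.Walk p n) (h0 : K.isA (p 0)) (hn : n < b)
    {x y : G} (hx : x ∈ K.ZA (p 0)) (hy : y ∈ K.ZA (p n)) : x * y = y * x :=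
  Q_comm_ZA (hK n hn p hp h0 hx) hy

theorem comm_two {b : ℕ} (hK : K.Below b) (hb3 : 3 ≤ b) {v a a' : V} (hv : ¬ K.isA v) (ha : K.adj v a)
    (ha' : K.adj v a') {x y : G} (hx : x ∈ K.ZA a) (hy : y ∈ K.ZA a') : x * y = y * x :=
  comm_walk hK (p := cons a (cons v fun _ => a')) (n := 2)
    (walk_cons (K.symm ha) (walk_cons ha' (fun i hi => absurd hi (Nat.not_lt_zero i)))) (bip_B ha hv) (by omega)
    (by simpa using hx) (by simpa using hy)

theorem ends_inter {b : ℕ} (hK : K.Below b) (hb : Odd b) (hb3 : 3 ≤ b) {p : ℕ → V} (hp : K.Crit p b) {x : G}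
    (h1 : x ∈ K.ZB (p 1)) (h2 : x ∈ K.ZB (p b)) : x = 1 := by
  obtain ⟨y, hy, hne⟩ := K.other (p b) (p (b - 1)) (adj_last hp.1 (by omega))
  obtain ⟨L, ⟨hnb, hL0, hLe, hLo⟩, hpre, -⟩ := exists_line hK hb hb3 hp hy hne b
  obtain ⟨g, hg, hgQ, hgfix, hgmove⟩ := crit_elem hK (hLo 3 (by decide) (by omega))
  simp only [show 3 + b - b = 3 by omega] at hgQ hgmove
  simp only [show 3 + b - (b - 1) = 4 by omega] at hgmove
  have hgb : g • p b = p b := by
    have := hgfix 3 (by omega)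
    rwa [show 3 + b - 3 = b by omega, hpre b le_rfl] at this
  have h23 : K.adj (L 3) (L 2) := K.symm (hnb.1 2 (by omega))
  have hmove := hgmove (L 2) h23 (hnb.2 2 (by omega))
  have hB3 : ¬ K.isA (L 3) := fun h =>
    Nat.not_even_iff_odd.2 (by decide : Odd 3) ((isA_of hnb.1 hL0 (show 3 ≤ b + 1 + 2 * b by omega)).1 h)
  have hg3 : g • L 3 = L 3 := by
    have := hgfix b le_rfl
    rwa [show 3 + b - b = 3 by omega] at this
  have hA2 : K.isA (L 2) := bip_B h23 hB3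
  have h21 : K.adj (L 2) (L 1) := K.symm (hnb.1 1 (by omega))
  have hx1 : x ∈ K.ZB (L 1) := by rw [hpre 1 (by omega)]; exact h1
  have hx2 : x ∈ K.ZA (g • L 2) := by
    have := conj_mem_ZA g (ZB_le_ZA h21 hx1)
    rwa [conj_ZB_of_fix (v := p b) hgb h2] at this
  exact ZB_inter h21 (K.symm h23) (hnb.2 1 (by omega)) hx1
    (ZA_inter hB3 h23 (adj_fix hg3 h23) hmove.symm (ZB_le_ZA h21 hx1) hx2)

theorem uni {b : ℕ} (hK : K.Below b) (hb : Odd b) (hb3 : 3 ≤ b) {p : ℕ → V} (hp : K.Crit p b) : K.Uni := by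
  have hA : K.isA (p 0) := hp.2.1
  have hB : ¬ K.isA (p b) := not_A_end hb hp
  have h01 : K.adj (p 0) (p 1) := hp.1 0 (by omega)
  obtain ⟨yy, hyy, hyyne⟩ := K.other (p b) (p (b - 1)) (adj_last hp.1 (by omega))
  have hyA : K.isA yy := bip_B hyy hB
  have hrv := fwd hK hb hb3 hp hyy hyyne
  obtain ⟨z, hz, hzQ, hzfix, hzmove⟩ := crit_elem hK hp
  obtain ⟨z', hz', hz'Q, hz'fix, hz'move⟩ := crit_elem hK hrv
  rw [rv_zero] at hz'
  rw [rv_pos _ _ _ (by omega : 1 ≤ b), show b + 1 - b = 1 by omega] at hz'Q hz'move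
  rw [rv_pos _ _ _ (by omega : 1 ≤ b - 1), show b + 1 - (b - 1) = 2 by omega] at hz'move
  have hz'1 : z' • p 1 = p 1 := by
    have := hz'fix b le_rfl
    rwa [rv_pos _ _ _ (by omega : 1 ≤ b), show b + 1 - b = 1 by omega] at this
  have hmove0 : z' • p 0 ≠ p 0 := hz'move (p 0) (K.symm h01) ((crit_nb hK hp).2 0 (by omega))
  have hzb : z • p b = p b := hzfix b le_rfl
  obtain ⟨w, hw, hw1⟩ := K.other (p 0) (p 1) h01
  obtain ⟨w', hw', hwb⟩ := K.other yy (p b) (K.symm hyy)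
  have hBw := bip_A hw hA
  have sel : ∀ (P : Subgroup G) (T : Subgroup G),
      (∀ a ∈ T, ∀ c ∈ T, a ∉ P → c ∉ P → a * c ∈ P) → ∀ y1 ∈ T, ∀ y2 ∈ T, y1 ≠ 1 → y2 ≠ 1 → y1 * y2 ≠ 1 →
      ∃ h, (h = y1 ∨ h = y2 ∨ h = y1 * y2) ∧ h ∈ P ∧ h ≠ 1 := by
    intro P T hT y1 h1 y2 h2 n1 n2 n3
    by_cases a1 : y1 ∈ P
    · exact ⟨y1, Or.inl rfl, a1, n1⟩
    by_cases a2 : y2 ∈ P
    · exact ⟨y2, Or.inr (Or.inl rfl), a2, n2⟩
    exact ⟨_, Or.inr (Or.inr rfl), hT y1 h1 y2 h2 a1 a2, n3⟩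
  intro v hv x hx y hy hx1 hy1
  by_contra hxy
  obtain ⟨g, hg⟩ := btrans hv hBw
  obtain ⟨g', hg'⟩ := btrans hv (bip_A hw' hyA)
  have hprod : x * y ≠ 1 := fun e => hxy (by rw [eq_inv_of_mul_eq_one_left e, ZB_inv hy])
  have ne1 : ∀ (g : G) {x : G}, x ≠ 1 → g * x * g⁻¹ ≠ 1 := fun g {x} h e => h (by
    rwa [mul_inv_eq_one, mul_eq_left] at e)
  have eprod : ∀ g : G, g * x * g⁻¹ * (g * y * g⁻¹) ≠ 1 := fun g e => ne1 g hprod (by
    rw [← e]; group)
  have inZ : ∀ (g : G) {u : V}, g • v = u → ∀ {x : G}, x ∈ K.ZB v → g * x * g⁻¹ ∈ K.ZB u := fun g {u} e {x} hx => by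
    rw [← e]; exact conj_mem_ZB g hx
  have hT1 : ∀ {c : G}, c ∈ K.ZB w → c ∈ TE (p b) (p (b - 1)) := fun {c} hc =>
    ⟨fix_below hK hp.1 hA le_rfl (ZB_le_ZA hw hc),
      fix_below hK (walk_mono hp.1 (by omega)) hA (by omega) (ZB_le_ZA hw hc)⟩
  have hT2 : ∀ {c : G}, c ∈ K.ZB w' → c ∈ TE (p 1) (p 2) := fun {c} hc => by
    have hc' : c ∈ K.ZA (rv p b yy 0) := by rw [rv_zero]; exact ZB_le_ZA hw' hc
    have a1 := fix_below hK hrv.1 hrv.2.1 le_rfl hc'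
    have a2 := fix_below hK (n := b - 1) (walk_mono hrv.1 (by omega)) hrv.2.1 (by omega) hc'
    rw [rv_pos _ _ _ (by omega : 1 ≤ b), show b + 1 - b = 1 by omega] at a1
    rw [rv_pos _ _ _ (by omega : 1 ≤ b - 1), show b + 1 - (b - 1) = 2 by omega] at a2
    exact ⟨a1, a2⟩
  obtain ⟨h, hh, hhQ, hh1⟩ := sel (K.Q (p b)) (TE (p b) (p (b - 1)))
    (fun a ha c hc na nc => K.two _ _ (adj_last hp.1 (by omega)) a ha na c hc nc)
    _ (hT1 (inZ g hg hx)) _ (hT1 (inZ g hg hy)) (ne1 g hx1) (ne1 g hy1) (eprod g)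
  obtain ⟨h', hh', hh'Q, hh'1⟩ := sel (K.Q (p 1)) (TE (p 1) (p 2))
    (fun a ha c hc na nc => K.two _ _ (hp.1 1 (by omega)) a ha na c hc nc)
    _ (hT2 (inZ g' hg' hx)) _ (hT2 (inZ g' hg' hy)) (ne1 g' hx1) (ne1 g' hy1) (eprod g')
  have hhw : h ∈ K.ZB w := by
    rcases hh with rfl | rfl | rfl
    exacts [inZ g hg hx, inZ g hg hy, mul_mem (inZ g hg hx) (inZ g hg hy)]
  have hh'w : h' ∈ K.ZB w' := by
    rcases hh' with rfl | rfl | rfl
    exacts [inZ g' hg' hx, inZ g' hg' hy, mul_mem (inZ g' hg' hx) (inZ g' hg' hy)]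
  have hhA := ZB_le_ZA hw hhw
  have hh'A := ZB_le_ZA hw' hh'w
  have hh'0 : h' ∈ TE (p 0) (p 1) := ⟨Q_fix_adj (K.symm h01) hh'Q, Q_fix hh'Q⟩
  have hhyy : h ∈ TE yy (p b) := ⟨Q_fix_adj hyy hhQ, Q_fix hhQ⟩
  have hnyy : h ∉ K.Q yy := by
    intro hq
    have hc : z' * h = h * z' := (Q_comm_ZA hq hz').symm
    have h2 : h ∈ K.ZA (z' • p 0) := by
      have := conj_mem_ZA z' hhA
      rwa [hc, mul_inv_cancel_right] at this
    exact hh1 (ZB_inter hw h01 hw1 hhw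
      (ZA_inter (bip_A h01 hA) (K.symm h01) (adj_fix hz'1 (K.symm h01)) hmove0.symm hhA h2))
  have hn0 : h' ∉ K.Q (p 0) := by
    intro hq
    have hc : z * h' = h' * z := (Q_comm_ZA hq hz).symm
    have h2 : h' ∈ K.ZA (z • yy) := by
      have := conj_mem_ZA z hh'A
      rwa [hc, mul_inv_cancel_right] at this
    exact hh'1 (ZB_inter hw' (K.symm hyy) hwb hh'w
      (ZA_inter hB hyy (adj_fix hzb hyy) (hzmove yy hyy hyyne).symm hh'A h2))
  have e1 := phi hA h01 hh'0 hhA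
  have e2 := phi hyA (K.symm hyy) hhyy hh'A
  have e12 : h * (h' * h * h'⁻¹) = (h' * (h * h' * h⁻¹))⁻¹ := by
    rw [mul_inv_rev, mul_inv_rev, mul_inv_rev, inv_inv, ZA_inv hhA, ZA_inv hh'A]
    group
  have e3 : h * (h' * h * h'⁻¹) = 1 := ends_inter hK hb hb3 hp e1 (by rw [e12]; exact inv_mem e2)
  have e4 : h' * h = h * h' := by
    have e5 : h' * h * h'⁻¹ = h := by rw [eq_inv_of_mul_eq_one_right e3, ZA_inv hhA]
    calc h' * h = h' * h * h'⁻¹ * h' := by group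
      _ = h * h' := by rw [e5]
  exact hh1 (ZB_inter hw h01 hw1 hhw (fixed_ZA hA h01 hh'0 hn0 hhA e4))

theorem coset (hu : K.Uni) {a v : V} (ha : K.isA a) (h : K.adj a v) {x y : G} (hx : x ∈ K.ZA a) (hy : y ∈ K.ZA a)
    (hx' : x ∉ K.ZB v) (hy' : y ∉ K.ZB v) : x * y ∈ K.ZB v := by
  obtain ⟨w, hw, hwv⟩ := K.other a v h
  obtain ⟨p, hp, q, hq, rfl⟩ := mem_ZA ha h hw hwv.symm hx
  obtain ⟨p', hp', q', hq', rfl⟩ := mem_ZA ha h hw hwv.symm hy
  have hq1 : q ≠ 1 := fun e => hx' (by rw [e, mul_one]; exact hp)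
  have hq'1 : q' ≠ 1 := fun e => hy' (by rw [e, mul_one]; exact hp')
  have e := hu w (bip_A hw ha) q hq q' hq' hq1 hq'1
  subst e
  rw [show p * q * (p' * q) = p * (q * p') * q by group,
    show q * p' = p' * q from hp'.2.2 q (Q_fix_adj h (ZA_le_Q (ZB_le_ZA hw hq))),
    show p * (p' * q) * q = p * p' * (q * q) by group, hq.2.1, mul_one]
  exact mul_mem hp hp'

theorem ZA_cases (hu : K.Uni) {a u v w : V} (ha : K.isA a) (h1 : K.adj a u) (h2 : K.adj a v) (h3 : K.adj a w)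
    (huv : u ≠ v) (huw : u ≠ w) (hvw : v ≠ w) {x : G} (hx : x ∈ K.ZA a) :
    x ∈ K.ZB u ∨ x ∈ K.ZB v ∨ x ∈ K.ZB w := by
  obtain ⟨p, hp, q, hq, rfl⟩ := mem_ZA ha h1 h2 huv hx
  by_cases hp1 : p = 1
  · subst hp1; rw [one_mul]; exact Or.inr (Or.inl hq)
  by_cases hq1 : q = 1
  · subst hq1; rw [mul_one]; exact Or.inl hp
  obtain ⟨c, hc, hc1⟩ := ZB_ne_one (bip_A h3 ha)
  obtain ⟨p', hp', q', hq', e⟩ := mem_ZA ha h1 h2 huv (ZB_le_ZA h3 hc)
  have hp'1 : p' ≠ 1 := fun e' => hc1 (ZB_inter h2 h3 hvw (by rw [e, e', one_mul]; exact hq') hc)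
  have hq'1 : q' ≠ 1 := fun e' => hc1 (ZB_inter h1 h3 huw (by rw [e, e', mul_one]; exact hp') hc)
  rw [hu u (bip_A h1 ha) p hp p' hp' hp1 hp'1, hu v (bip_A h2 ha) q hq q' hq' hq1 hq'1, ← e]
  exact Or.inr (Or.inr hc)

theorem fixed_Q {a v : V} (ha : K.isA a) (h : K.adj a v) {t x : G} (ht : t ∈ TE a v) (hx : x ∈ K.ZA a)
    (hx' : x ∉ K.ZB v) (hc : t * x = x * t) : t ∈ K.Q a := by
  by_contra htQ
  exact hx' (fixed_ZA ha h ht htQ hx hc)

theorem conj_not_ZB {g : G} {v : V} (hg : g • v = v) {x : G} (hx : x ∉ K.ZB v) : g * x * g⁻¹ ∉ K.ZB v := fun h => by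
  have := conj_mem_ZB g⁻¹ h
  rw [inv_fix hg, show g⁻¹ * (g * x * g⁻¹) * g⁻¹⁻¹ = x by group] at this
  exact hx this

/-- A product of elements of two modules around a vertex is fixed up to the centre. -/
theorem pair_conj {b : ℕ} (hK : K.Below b) (hb3 : 3 ≤ b) (hu : K.Uni) {v a a' c : V} (hv : ¬ K.isA v)
    (ha : K.adj v a) (ha' : K.adj v a') (hc : K.adj v c) (h1 : a ≠ a') (h2 : a ≠ c) (h3 : a' ≠ c) {x x' : G}
    (hx : x ∈ K.ZA a) (hxn : x ∉ K.ZB v) (hx' : x' ∈ K.ZA a') (hx'n : x' ∉ K.ZB v) {g : G} (hg : g ∈ TE v c) :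
    g * (x * x') * g⁻¹ * (x * x')⁻¹ ∈ K.ZB v := by
  have hcz : ∀ {p y : G}, p ∈ K.ZB v → y • v = v → y * p = p * y := fun hp hy => hp.2.2 _ hy
  have hxv : x • v = v := Q_fix_adj (K.symm ha) (ZA_le_Q hx)
  have hx'v : x' • v = v := Q_fix_adj (K.symm ha') (ZA_le_Q hx')
  have hgx := conj_mem_ZA g hx
  have hgx' := conj_mem_ZA g hx'
  have key : ∀ {A B : G}, A ∈ K.ZA a → A ∉ K.ZB v → B ∈ K.ZA a' → B ∉ K.ZB v →
      (A * B) * (x * x')⁻¹ ∈ K.ZB v := by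
    intro A B hA hAn hB hBn
    have p1 : A * x ∈ K.ZB v := coset hu (bip_B ha hv) (K.symm ha) hA hx hAn hxn
    have p2 : B * x' ∈ K.ZB v := coset hu (bip_B ha' hv) (K.symm ha') hB hx' hBn hx'n
    have e : A * B * (x * x')⁻¹ = (A * x) * (B * x') := by
      rw [mul_inv_rev, ZA_inv hx, ZA_inv hx', show A * B * (x' * x) = A * ((B * x') * x) by group,
        ← hcz p2 hxv, show A * (x * (B * x')) = A * x * (B * x') by group]
    rw [e]
    exact mul_mem p1 p2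
  rw [show g * (x * x') * g⁻¹ = (g * x * g⁻¹) * (g * x' * g⁻¹) by group]
  have hga := adj_fix hg.1 ha
  rcases nbr_cases ha ha' hc h1 h2 h3 hga with e | e | e
  · have e' : g • a' = a' := by
      rcases nbr_cases ha ha' hc h1 h2 h3 (adj_fix hg.1 ha') with e2 | e2 | e2
      · exact absurd (smul_left_cancel g (e2.trans e.symm)) h1.symm
      · exact e2
      · exact absurd (smul_left_cancel g (e2.trans hg.2.symm)) h3
    rw [e] at hgx
    rw [e'] at hgx'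
    exact key hgx (conj_not_ZB hg.1 hxn) hgx' (conj_not_ZB hg.1 hx'n)
  · have e' : g • a' = a := by
      rcases nbr_cases ha ha' hc h1 h2 h3 (adj_fix hg.1 ha') with e2 | e2 | e2
      · exact e2
      · exact absurd (smul_left_cancel g (e2.trans e.symm)) h1.symm
      · exact absurd (smul_left_cancel g (e2.trans hg.2.symm)) h3
    rw [e] at hgx
    rw [e'] at hgx'
    rw [comm_two hK hb3 hv ha' ha hgx hgx']
    exact key hgx' (conj_not_ZB hg.1 hx'n) hgx (conj_not_ZB hg.1 hxn)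
  · exact absurd (smul_left_cancel g (e.trans hg.2.symm)) h2

theorem parity (hu : K.Uni) {v a a' : V} (hv : ¬ K.isA v) (ha : K.adj v a) (ha' : K.adj v a') {x x' : G}
    (hx : x ∈ K.ZA a) (hxn : x ∉ K.ZB v) (hx' : x' ∈ K.ZA a') (hx'n : x' ∉ K.ZB v) {q : G} (hq : q ∈ K.Q v)
    (hiff : q ∈ K.Q a ↔ q ∈ K.Q a') : q * (x * x') = x * x' * q := by
  by_cases hqa : q ∈ K.Q a
  · rw [← mul_assoc, Q_comm_ZA hqa hx, mul_assoc, Q_comm_ZA (hiff.1 hqa) hx', mul_assoc]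
  have hqa' : q ∉ K.Q a' := fun e => hqa (hiff.2 e)
  have hT := T_comm (Q_le_T ha hq)
  have hT' := T_comm (Q_le_T ha' hq)
  have hA := bip_B ha hv
  have hA' := bip_B ha' hv
  have p1 := phi hA (K.symm ha) hT hx
  have p2 := phi hA' (K.symm ha') hT' hx'
  have n : ∀ {a : V} {x : G}, K.isA a → K.adj a v → q ∈ TE a v → q ∉ K.Q a → x ∈ K.ZA a → x ∉ K.ZB v →
      x * (q * x * q⁻¹) ≠ 1 := fun {a x} hA h hT hn hx hxn e => hxn (fixed_ZA hA h hT hn hx (by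
    calc q * x = q * x * q⁻¹ * q := by group
      _ = x * q := by rw [eq_inv_of_mul_eq_one_right e, ZA_inv hx]))
  have e := hu v hv _ p1 _ p2 (n hA (K.symm ha) hT hqa hx hxn) (n hA' (K.symm ha') hT' hqa' hx' hx'n)
  have hxx : q * (x * x') * q⁻¹ = x * x' := by
    have hxv : x • v = v := Q_fix_adj (K.symm ha) (ZA_le_Q hx)
    set P := x * (q * x * q⁻¹) with hP
    calc q * (x * x') * q⁻¹ = (q * x * q⁻¹) * (q * x' * q⁻¹) := by group
      _ = (x * P) * (x' * (x' * (q * x' * q⁻¹))) := by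
        rw [hP, ← mul_assoc x x, ZA_sq hx, one_mul, ← mul_assoc x' x', ZA_sq hx', one_mul]
      _ = x * (P * x') * P := by rw [← e]; group
      _ = x * (x' * P) * P := by rw [← p1.2.2 x' (Q_fix_adj (K.symm ha') (ZA_le_Q hx'))]
      _ = x * x' * (P * P) := by group
      _ = x * x' := by rw [p1.2.1, mul_one]
  calc q * (x * x') = q * (x * x') * q⁻¹ * q := by group
    _ = x * x' * q := by rw [hxx]

theorem good_at (hg : K.Good) {v a a' c : V} (hv : ¬ K.isA v) (ha : K.adj v a) (ha' : K.adj v a') (hc : K.adj v c)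
    (h1 : a ≠ a') (h2 : a ≠ c) (h3 : a' ≠ c) :
    ∃ q ∈ K.Q v, q ∉ K.Q c ∧ (q ∈ K.Q a ↔ q ∈ K.Q a') := by
  obtain ⟨v0, a0, a0', c0, q, hq, hv0, ha0, ha0', hc0, n1, n2, n3, hqc, hqa⟩ := hg
  obtain ⟨g, rfl⟩ := btrans hv0 hv
  obtain ⟨k, hk, hkc⟩ := K.trans (g • v0) (g • c0) c (K.smul g hc0) hc
  set m := k * g with hm
  have mv : m • v0 = g • v0 := by rw [mul_smul, hk]
  have mc : m • c0 = c := by rw [mul_smul, hkc]
  have ma : ∀ u, K.adj v0 u → K.adj (g • v0) (m • u) := fun u hu => by rw [← mv]; exact K.smul m hu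
  have hq' : ∀ u, m * q * m⁻¹ ∈ K.Q (m • u) ↔ q ∈ K.Q u := fun u => conj_mem_Q_iff m
  refine ⟨m * q * m⁻¹, by rw [← mv, hq']; exact hq, by rw [← mc, hq']; exact hqc, ?_⟩
  have hne : ∀ {u u' : V}, u ≠ u' → m • u ≠ m • u' := fun h e => h (smul_left_cancel m e)
  rcases nbr_cases ha ha' hc h1 h2 h3 (ma a0 ha0) with e | e | e
  · have e' : m • a0' = a' := by
      rcases nbr_cases ha ha' hc h1 h2 h3 (ma a0' ha0') with e2 | e2 | e2
      · exact absurd (e2.trans e.symm) (hne n1.symm)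
      · exact e2
      · exact absurd (e2.trans mc.symm) (hne n3)
    rw [← e, ← e', hq', hq']; exact hqa
  · have e' : m • a0' = a := by
      rcases nbr_cases ha ha' hc h1 h2 h3 (ma a0' ha0') with e2 | e2 | e2
      · exact e2
      · exact absurd (e2.trans e.symm) (hne n1.symm)
      · exact absurd (e2.trans mc.symm) (hne n3)
    rw [← e, ← e', hq', hq']; exact hqa.symm
  · exact absurd (e.trans mc.symm) (hne n2)

theorem even_at (hg : ¬ K.Good) {v a a' c : V} (hv : ¬ K.isA v) (ha : K.adj v a) (ha' : K.adj v a')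
    (hc : K.adj v c) (h1 : a ≠ a') (h2 : a ≠ c) (h3 : a' ≠ c) {q : G} (hq : q ∈ K.Q v) (hqc : q ∉ K.Q c) :
    q ∈ K.Q a ↔ q ∉ K.Q a' := by
  by_contra h
  exact hg ⟨v, a, a', c, q, hq, hv, ha, ha', hc, h1, h2, h3, hqc, by tauto⟩

/-- A critical walk, an extension, and the two elements. -/
structure Cfg (K : Gold G V) (b : ℕ) (p : ℕ → V) (y : V) (z z' : G) : Prop where
  below : K.Below b
  odd : Odd b
  three : 3 ≤ b
  crit : K.Crit p b
  adjy : K.adj (p b) y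
  ne : y ≠ p (b - 1)
  hz : z ∈ K.ZA (p 0)
  hzQ : z ∉ K.Q (p b)
  hz' : z' ∈ K.ZA y
  hz'Q : z' ∉ K.Q (p 1)

variable {b : ℕ} {p : ℕ → V} {y : V} {z z' : G}

theorem exists_cfg (hK : K.Below b) (hb : Odd b) (hb3 : 3 ≤ b) (hp : K.Crit p b) (hy : K.adj (p b) y)
    (hne : y ≠ p (b - 1)) : ∃ z z', Cfg K b p y z z' := by
  obtain ⟨z, hz, hzQ, -⟩ := crit_elem hK hp
  obtain ⟨z', hz', hz'Q, -⟩ := crit_elem hK (fwd hK hb hb3 hp hy hne)
  rw [rv_zero] at hz'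
  rw [rv_pos _ _ _ (by omega), show b + 1 - b = 1 by omega] at hz'Q
  exact ⟨z, z', hK, hb, hb3, hp, hy, hne, hz, hzQ, hz', hz'Q⟩

namespace Cfg

theorem rvc (C : Cfg K b p y z z') : K.Crit (rv p b y) b := fwd C.below C.odd C.three C.crit C.adjy C.ne

theorem A0 (C : Cfg K b p y z z') : K.isA (p 0) := C.crit.2.1

theorem adj10 (C : Cfg K b p y z z') : K.adj (p 1) (p 0) := K.symm (C.crit.1 0 (by have := C.three; omega))

theorem adj12 (C : Cfg K b p y z z') : K.adj (p 1) (p 2) := C.crit.1 1 (by have := C.three; omega)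

theorem B1 (C : Cfg K b p y z z') : ¬ K.isA (p 1) := bip_A (K.symm C.adj10) C.A0

theorem ne02 (C : Cfg K b p y z z') : p 0 ≠ p 2 :=
  (crit_nb C.below C.crit).2 0 (by have := C.three; omega)

theorem zfix (C : Cfg K b p y z z') {j : ℕ} (hj : j ≤ b) : z • p j = p j :=
  fix_below C.below (walk_mono C.crit.1 hj) C.A0 hj C.hz

theorem z'fix (C : Cfg K b p y z z') {j : ℕ} (hj1 : 1 ≤ j) (hj : j ≤ b) : z' • p j = p j := by
  have := fix_below C.below (n := b + 1 - j) (walk_mono C.rvc.1 (by omega)) C.rvc.2.1 (by omega)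
    (show z' ∈ K.ZA (rv p b y 0) by rw [rv_zero]; exact C.hz')
  rwa [rv_pos p b y (by omega), show b + 1 - (b + 1 - j) = j by omega] at this

theorem z'T (C : Cfg K b p y z z') : z' ∈ TE (p 1) (p 2) :=
  ⟨C.z'fix le_rfl (by have := C.three; omega), C.z'fix (by omega) (by have := C.three; omega)⟩

theorem adj1' (C : Cfg K b p y z z') : K.adj (p 1) (z' • p 0) := adj_fix C.z'T.1 C.adj10

theorem move0 (C : Cfg K b p y z z') : z' • p 0 ≠ p 0 :=
  K.move (p 1) (p 2) (p 0) C.adj12 C.adj10 C.ne02.symm z' C.z'T C.hz'Q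

theorem ne' (C : Cfg K b p y z z') : z' • p 0 ≠ p 2 := fun e =>
  C.ne02 (smul_left_cancel z' (e.trans C.z'T.2.symm))

theorem zn (C : Cfg K b p y z z') : z ∉ K.ZB (p 1) := fun h => C.hzQ (ZB_end C.below C.three C.crit h)

theorem z''n (C : Cfg K b p y z z') : z' * z * z'⁻¹ ∉ K.ZB (p 1) := conj_not_ZB C.z'T.1 C.zn

theorem z''mem (C : Cfg K b p y z z') : z' * z * z'⁻¹ ∈ K.ZA (z' • p 0) := conj_mem_ZA z' C.hz

theorem comm (C : Cfg K b p y z z') : z * (z' * z * z'⁻¹) = z' * z * z'⁻¹ * z :=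
  comm_two C.below C.three C.B1 C.adj10 C.adj1' C.hz C.z''mem

theorem sq (C : Cfg K b p y z z') : z * (z' * z * z'⁻¹) * (z * (z' * z * z'⁻¹)) = 1 := by
  have h := ZA_sq C.z''mem
  rw [mul_assoc, ← mul_assoc (z' * z * z'⁻¹) z, ← C.comm, mul_assoc z, h, mul_one, ZA_sq C.hz]

/-- The commutator from the other end. -/
theorem eq' (C : Cfg K b p y z z') : z * (z' * z * z'⁻¹) = z' * (z * z' * z⁻¹) := by
  have h : z * (z' * z * z'⁻¹) = (z' * (z * z' * z⁻¹))⁻¹ := by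
    rw [mul_inv_rev, mul_inv_rev, mul_inv_rev, inv_inv, ZA_inv C.hz, ZA_inv C.hz']
    group
  rw [← inv_eq_of_mul_eq_one_right C.sq, h, inv_inv]

theorem notmem (C : Cfg K b p y z z') : z * (z' * z * z'⁻¹) ∉ K.ZB (p 1) := by
  intro h
  have h2 : z' * z * z'⁻¹ ∈ K.ZA (p 0) := by
    have := mul_mem C.hz (ZB_le_ZA (K.symm C.adj10) h)
    rwa [← mul_assoc, ZA_sq C.hz, one_mul] at this
  exact C.z''n (ZA_inter C.B1 C.adj10 C.adj1' C.move0.symm h2 C.z''mem)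

theorem ne_one (C : Cfg K b p y z z') : z * (z' * z * z'⁻¹) ≠ 1 := fun e => C.notmem (by rw [e]; exact one_mem _)

theorem T12 (C : Cfg K b p y z z') : z * (z' * z * z'⁻¹) ∈ TE (p 1) (p 2) := by
  have h : z ∈ TE (p 1) (p 2) := ⟨C.zfix (by have := C.three; omega), C.zfix (by have := C.three; omega)⟩
  exact mul_mem h (mul_mem (mul_mem C.z'T h) (inv_mem C.z'T))

theorem comm_z' (C : Cfg K b p y z z') : z' * (z * (z' * z * z'⁻¹)) = z * (z' * z * z'⁻¹) * z' := by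
  have e : z' * (z' * z * z'⁻¹) * z'⁻¹ = z := by
    rw [show z' * (z' * z * z'⁻¹) * z'⁻¹ = (z' * z') * z * (z' * z')⁻¹ by group, ZA_sq C.hz', one_mul, inv_one,
      mul_one]
  calc z' * (z * (z' * z * z'⁻¹)) = (z' * z * z'⁻¹) * (z' * (z' * z * z'⁻¹) * z'⁻¹) * z' := by group
    _ = (z' * z * z'⁻¹) * z * z' := by rw [e]
    _ = z * (z' * z * z'⁻¹) * z' := by rw [C.comm]

/-- Elements fixing the first edge of the shared part fix the commutator up to the centre. -/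
theorem mod_first (C : Cfg K b p y z z') (hu : K.Uni) {g : G} (hg : g ∈ TE (p 1) (p 2)) :
    g * (z * (z' * z * z'⁻¹)) * g⁻¹ * (z * (z' * z * z'⁻¹))⁻¹ ∈ K.ZB (p 1) :=
  pair_conj C.below C.three hu C.B1 C.adj10 C.adj1' C.adj12 C.move0.symm C.ne02 C.ne' C.hz C.zn C.z''mem C.z''n hg

theorem mod_last (C : Cfg K b p y z z') (hu : K.Uni) {g : G} (hg : g ∈ TE (p b) (p (b - 1))) :
    g * (z * (z' * z * z'⁻¹)) * g⁻¹ * (z * (z' * z * z'⁻¹))⁻¹ ∈ K.ZB (p b) := by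
  rw [C.eq']
  have hB := not_A_end C.odd C.crit
  have hl : K.adj (p b) (p (b - 1)) := adj_last C.crit.1 (by have := C.three; omega)
  have hzb : z • p b = p b := C.zfix le_rfl
  have hzl : z • p (b - 1) = p (b - 1) := C.zfix (by omega)
  have hzy : z • y ≠ y := K.move _ _ _ hl C.adjy C.ne.symm z ⟨hzb, hzl⟩ C.hzQ
  have hzy' : z • y ≠ p (b - 1) := fun e => C.ne (smul_left_cancel z (e.trans hzl.symm))
  have hz'n : z' ∉ K.ZB (p b) := fun h => by
    have := ZB_end C.below C.three C.rvc (x := z') (by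
      rwa [rv_pos _ _ _ le_rfl, show b + 1 - 1 = b by omega])
    rw [rv_pos _ _ _ (by have := C.three; omega), show b + 1 - b = 1 by omega] at this
    exact C.hz'Q this
  exact pair_conj C.below C.three hu hB C.adjy (adj_fix hzb C.adjy) hl hzy.symm C.ne hzy' C.hz' hz'n
    (conj_mem_ZA z C.hz') (conj_not_ZB hzb hz'n) hg

theorem parity1 (C : Cfg K b p y z z') (hu : K.Uni) {q : G} (hq : q ∈ K.Q (p 1))
    (h : q ∈ K.Q (p 0) ↔ q ∈ K.Q (z' • p 0)) :
    q * (z * (z' * z * z'⁻¹)) = z * (z' * z * z'⁻¹) * q :=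
  parity hu C.B1 C.adj10 C.adj1' C.hz C.zn C.z''mem C.z''n hq h

theorem z'Q2 (C : Cfg K b p y z z') : z' ∈ K.Q (p 2) := by
  have h := C.below (b - 1) (by have := C.three; omega) (rv p b y) (walk_mono C.rvc.1 (by omega)) C.rvc.2.1
    (show z' ∈ K.ZA (rv p b y 0) by rw [rv_zero]; exact C.hz')
  rwa [rv_pos _ _ _ (by have := C.three; omega), show b + 1 - (b - 1) = 2 by have := C.three; omega] at h

/-- Without odd weights the commutator lies in the next module. -/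
theorem even_mem (C : Cfg K b p y z z') (hu : K.Uni) (hg : ¬ K.Good) :
    z * (z' * z * z'⁻¹) ∈ K.ZA (p 2) := by
  have hA2 : K.isA (p 2) := bip_B C.adj12 C.B1
  obtain ⟨w, hw, hw1⟩ := K.other (p 2) (p 1) (K.symm C.adj12)
  obtain ⟨c, hc, hc1⟩ := ZB_ne_one (bip_A hw hA2)
  have hcA := ZB_le_ZA hw hc
  have hcn : c ∉ K.ZB (p 1) := fun h => hc1 (ZB_inter hw (K.symm C.adj12) hw1 hc h)
  set w0 := z * (z' * z * z'⁻¹) with hw0
  have hc0 : c * z = z * c := comm_two C.below C.three C.B1 C.adj12 C.adj10 hcA C.hz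
  have hc'' : c * (z' * z * z'⁻¹) = z' * z * z'⁻¹ * c := comm_two C.below C.three C.B1 C.adj12 C.adj1' hcA C.z''mem
  have hcw : c * w0 = w0 * c := by rw [hw0, ← mul_assoc, hc0, mul_assoc, hc'', ← mul_assoc]
  set e := w0 * c with he
  have heQ : ∀ q ∈ K.Q (p 1), q * e = e * q := by
    intro q hq
    by_cases h2 : q ∈ K.Q (p 2)
    · have h : q ∈ K.Q (p 0) ↔ q ∈ K.Q (z' • p 0) := by
        constructor
        · intro h0
          by_contra h'
          exact (even_at hg C.B1 C.adj10 C.adj12 C.adj1' C.ne02 C.move0.symm C.ne'.symm hq h').1 h0 h2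
        · intro h'
          by_contra h0
          exact (even_at hg C.B1 C.adj12 C.adj1' C.adj10 C.ne'.symm C.ne02.symm C.move0 hq h0).1 h2 h'
      calc q * e = q * w0 * c := by rw [he, mul_assoc q w0 c]
        _ = w0 * q * c := congrArg (· * c) (C.parity1 hu hq h)
        _ = w0 * (c * q) := by rw [mul_assoc w0 q c, Q_comm_ZA h2 hcA]
        _ = e * q := by rw [he, mul_assoc w0 c q]
    · have h := even_at hg C.B1 C.adj10 C.adj1' C.adj12 C.move0.symm C.ne02 C.ne' hq h2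
      by_cases h0 : q ∈ K.Q (p 0)
      · have h'' : q ∉ K.Q (z' • p 0) := h.1 h0
        have := parity hu C.B1 C.adj1' C.adj12 C.z''mem C.z''n hcA hcn hq (iff_of_false h'' h2)
        rw [he, hw0, mul_assoc z, ← mul_assoc q, Q_comm_ZA h0 C.hz, mul_assoc, this, ← mul_assoc]
      · have h'' : q ∈ K.Q (z' • p 0) := by by_contra hh; exact h0 (h.2 hh)
        have := parity hu C.B1 C.adj10 C.adj12 C.hz C.zn hcA hcn hq (iff_of_false h0 h2)
        rw [he, hw0, C.comm, mul_assoc (z' * z * z'⁻¹), ← mul_assoc q, Q_comm_ZA h'' C.z''mem, mul_assoc, this,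
          ← mul_assoc]
  have hez : z' * e = e * z' := by
    calc z' * e = z' * w0 * c := by rw [he, mul_assoc z' w0 c]
      _ = w0 * z' * c := congrArg (· * c) C.comm_z'
      _ = w0 * (c * z') := by rw [mul_assoc w0 z' c, Q_comm_ZA C.z'Q2 hcA]
      _ = e * z' := by rw [he, mul_assoc w0 c z']
  have hle : TE (G := G) (p 1) (p 2) ≤ centralizer ({e} : Set G) :=
    le_of_gen C.adj12 (fun q hq => mem_centralizer_singleton_iff.2 (heQ q hq)) C.z'T C.hz'Q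
      (mem_centralizer_singleton_iff.2 hez)
  have hee : e ∈ K.ZB (p 1) := by
    refine inv2_T C.B1 C.adj12 ⟨mul_mem C.T12 (T_comm (Q_le_T (K.symm C.adj12) (ZA_le_Q hcA))), ?_,
      fun g hg => mem_centralizer_singleton_iff.1 (hle hg)⟩
    rw [he, mul_assoc, ← mul_assoc c, hcw, mul_assoc w0 c c, ZA_sq hcA, mul_one, C.sq]
  have h := mul_mem (ZB_le_ZA (K.symm C.adj12) hee) hcA
  rwa [he, mul_assoc, ZA_sq hcA, mul_one] at h

end Cfg

end Gold

end Cfsg.Agent.Lib.GoldAmalgam
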