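import Cfsg.Agent.Lib.GoldAmalgam.Comm

/-!
An odd critical distance is at most three.
-/

set_option autoImplicit false

namespace Cfsg.Agent.Lib.GoldAmalgam

open Subgroup MulAction
open Cfsg.Agent.Lib.S3Amalgam (inv2 TE QV)

variable {G : Type*} [Group G] {V : Type*} [MulAction G V]

namespace Gold

variable {K : Gold G V} {b : ℕ}

theorem mover_of (hK : K.Below b) (hb3 : 3 ≤ b) (hu : K.Uni) {p : ℕ → V} (hp : K.Crit p b) {x : G}
    (hx : x ∈ K.ZA (p 0)) (hxn : x ∉ K.ZB (p 1)) : x ∉ K.Q (p b) := by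
  intro hq
  obtain ⟨z, hz, hzQ, -⟩ := crit_elem hK hp
  have h := coset hu hp.2.1 (hp.1 0 (by omega)) hx hz hxn (fun h => hzQ (ZB_end hK hb3 hp h))
  exact hzQ ((mul_mem_cancel_left hq).1 (ZB_end hK hb3 hp h))

theorem even_ZB3 (hK : K.Below b) (hb : Odd b) (hb5 : 5 ≤ b) (hu : K.Uni) (hg : ¬ K.Good) {p : ℕ → V} {y : V}
    {z z' : G} (C : Cfg K b p y z z') :
    z * (z' * z * z'⁻¹) ∈ K.ZB (p 3) ∧ z * (z' * z * z'⁻¹) ∈ K.ZA (p (b - 1)) := by
  have h2 := C.even_mem hu hg
  have C' : Cfg K b (rv p b y) (p 0) z' z :=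
    { below := hK, odd := hb, three := C.three, crit := C.rvc
      adjy := by rw [rv_pos _ _ _ (by omega), show b + 1 - b = 1 by omega]; exact C.adj10
      ne := by rw [rv_pos _ _ _ (by omega), show b + 1 - (b - 1) = 2 by omega]; exact C.ne02
      hz := by rw [rv_zero]; exact C.hz'
      hzQ := by rw [rv_pos _ _ _ (by omega), show b + 1 - b = 1 by omega]; exact C.hz'Q
      hz' := C.hz
      hz'Q := by rw [rv_pos _ _ _ (by omega), show b + 1 - 1 = b by omega]; exact C.hzQ }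
  have hl := C'.even_mem hu hg
  rw [rv_pos _ _ _ (by omega), show b + 1 - 2 = b - 1 by omega, ← C.eq'] at hl
  obtain ⟨L, ⟨hnb, hL0, -, hLo⟩, hpre, -⟩ := exists_line hK hb C.three C.crit C.adjy C.ne b
  obtain ⟨g, hgA, hgQ, hgfix, hgmove⟩ := crit_elem hK (hLo 3 (by decide) (by omega))
  simp only [show 3 + b - b = 3 by omega] at hgQ hgmove
  simp only [show 3 + b - (b - 1) = 4 by omega] at hgmove
  simp only [Nat.sub_zero] at hgA
  have hg3 : g • L 3 = L 3 := by
    have := hgfix b le_rfl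
    rwa [show 3 + b - b = 3 by omega] at this
  have h23 : K.adj (L 3) (L 2) := K.symm (hnb.1 2 (by omega))
  have hgc : g * (z * (z' * z * z'⁻¹)) = z * (z' * z * z'⁻¹) * g := by
    refine comm_walk hK (p := fun i => L (3 + b - i)) (n := 4) (walk_mono (hLo 3 (by decide) (by omega)).1 (by omega))
      (hLo 3 (by decide) (by omega)).2.1 (by omega) (by simpa using hgA) ?_
    rw [show L (3 + b - 4) = L (b - 1) by congr 1; omega, hpre _ (by omega)]
    exact hl
  have h2' : z * (z' * z * z'⁻¹) ∈ K.ZA (g • L 2) := by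
    have := conj_mem_ZA g h2
    rwa [hgc, mul_inv_cancel_right, ← hpre 2 (by omega)] at this
  refine ⟨?_, hl⟩
  rw [← hpre 3 (by omega)]
  have hB3 : ¬ K.isA (L 3) := by
    rw [hpre 3 (by omega), isA_of C.crit.1 C.A0 (by omega)]
    decide
  exact ZA_inter hB3 h23 (adj_fix hg3 h23) (hgmove (L 2) h23 (hnb.2 2 (by omega))).symm
    (by rw [hpre 2 (by omega)]; exact h2) h2'

theorem no_even_long (hK : K.Below b) (hb : Odd b) (hb5 : 5 ≤ b) (hu : K.Uni) (hg : ¬ K.Good) {p : ℕ → V}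
    (hp : K.Crit p b) : False := by
  have hb3 : 3 ≤ b := by omega
  obtain ⟨y, hy, hne⟩ := K.other (p b) (p (b - 1)) (adj_last hp.1 (by omega))
  rcases Nat.lt_or_ge b 7 with hb7 | hb7
  · obtain ⟨k, hk⟩ := hb
    obtain rfl : b = 5 := by omega
    obtain ⟨L, ⟨hnb, hL0, hLe, hLo⟩, -, -⟩ := exists_line hK (by decide) hb3 hp hy hne 3
    have hA : ∀ i, i ≤ 12 → (K.isA (L i) ↔ Even i) := fun i hi => isA_of hnb.1 hL0 hi
    obtain ⟨a, ha, haQ, hafix, hamove⟩ := crit_elem hK (hLe 0 (by decide) (by omega))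
    simp only [zero_add, Nat.reduceSub] at ha haQ hafix hamove
    obtain ⟨c, hc, hcQ, hcfix, hcmove⟩ := crit_elem hK (hLo 3 (by decide) (by omega))
    simp only [Nat.reduceAdd, Nat.reduceSub, Nat.sub_zero] at hc hcQ hcfix hcmove
    have hcf : ∀ j, 3 ≤ j → j ≤ 8 → c • L j = L j := fun j h1 h2 => by
      have := hcfix (8 - j) (by omega)
      rwa [show 8 - (8 - j) = j by omega] at this
    have a23 : K.adj (L 3) (L 2) := K.symm (hnb.1 2 (by omega))
    have a34 : K.adj (L 3) (L 4) := hnb.1 3 (by omega)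
    have a54 : K.adj (L 5) (L 4) := K.symm (hnb.1 4 (by omega))
    have a56 : K.adj (L 5) (L 6) := hnb.1 5 (by omega)
    have a67 : K.adj (L 6) (L 7) := hnb.1 6 (by omega)
    have hc2 : c • L 2 ≠ L 2 := hcmove (L 2) a23 (hnb.2 2 (by omega))
    have ha6 : a • L 6 ≠ L 6 := hamove (L 6) a56 (hnb.2 4 (by omega)).symm
    have hB3 : ¬ K.isA (L 3) := by rw [hA 3 (by omega)]; decide
    have hB5 : ¬ K.isA (L 5) := by rw [hA 5 (by omega)]; decide
    -- a mover at the end of type `A`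
    obtain ⟨t, ht, ht4, ht6, -⟩ := K.third (L 5) (L 4) (L 6) a54 a56 (hnb.2 4 (by omega))
    obtain ⟨q, hq5, hq4, hq6⟩ : ∃ q ∈ K.Q (L 5), q ∈ K.Q (L 4) ∧ q ∉ K.Q (L 6) := by
      obtain ⟨q, hq, hq6⟩ := K.qne (L 5) (L 6) a56
      by_cases h4 : q ∈ K.Q (L 4)
      · exact ⟨q, hq, h4, hq6⟩
      · have htq : q ∈ K.Q t := by
          by_contra h
          exact h4 ((even_at hg hB5 a54 ht a56 ht4.symm (hnb.2 4 (by omega)) ht6 hq hq6).2 h)
        obtain ⟨g, hgT, hgQ⟩ := exists_T_not_Q a56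
        have hgt : g • t = L 4 := swap a56 ht a54 ht6.symm (hnb.2 4 (by omega)).symm ht4 hgT hgQ
        refine ⟨g * q * g⁻¹, conj_Q_of_fix hgT.1 hq, ?_, fun h => hq6 ?_⟩
        · rw [← hgt]; exact conj_mem_Q g htq
        · rw [← hgT.2] at h; exact (conj_mem_Q_iff g).1 h
    have hqf : ∀ j, 3 ≤ j → j ≤ 6 → q • L j = L j := fun j h1 h2 => by
      rcases (show j = 3 ∨ j = 4 ∨ j = 5 ∨ j = 6 by omega) with rfl | rfl | rfl | rfl
      exacts [Q_fix_adj (K.symm a34) hq4, Q_fix hq4, Q_fix hq5, Q_fix_adj a56 hq5]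
    have hq7 : q • L 7 ≠ L 7 :=
      K.move _ _ _ (K.symm a56) a67 (hnb.2 5 (by omega)) q ⟨hqf 6 (by omega) le_rfl, hqf 5 (by omega) (by omega)⟩ hq6
    obtain ⟨g, hgf, hg7⟩ : ∃ g : G, (∀ j, 2 ≤ j → j ≤ 6 → g • L j = L j) ∧ g • L 7 ≠ L 7 := by
      by_cases h2 : q • L 2 = L 2
      · refine ⟨q, fun j h1 h2' => ?_, hq7⟩
        rcases Nat.lt_or_ge j 3 with h | h
        · obtain rfl : j = 2 := by omega
          exact h2
        · exact hqf j h h2'
      · obtain ⟨u, hu', hu2, hu4, -⟩ := K.third (L 3) (L 2) (L 4) a23 a34 (hnb.2 2 (by omega))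
        have hqT : q ∈ TE (L 3) (L 4) := ⟨hqf 3 le_rfl (by omega), hqf 4 (by omega) (by omega)⟩
        have hqn : q ∉ K.Q (L 3) := fun h => h2 (Q_fix_adj a23 h)
        have e1 : q • L 2 = u := swap a34 a23 hu' (hnb.2 2 (by omega)).symm hu4.symm hu2.symm hqT hqn
        have e2 : c • u = L 2 :=
          swap a34 hu' a23 hu4.symm (hnb.2 2 (by omega)).symm hu2 ⟨hcf 3 le_rfl (by omega), hcf 4 (by omega) (by omega)⟩
            hcQ
        refine ⟨c * q, fun j h1 h2' => ?_, fun e => hq7 ?_⟩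
        · rcases Nat.lt_or_ge j 3 with h | h
          · obtain rfl : j = 2 := by omega
            rw [mul_smul, e1, e2]
          · rw [mul_smul, hqf j h h2', hcf j h (by omega)]
        · rw [mul_smul] at e
          exact smul_left_cancel c (e.trans (hcf 7 (by omega) (by omega)).symm)
    have hall : ∀ r : ℕ → V, K.NB r 5 → K.isA (r 0) → K.Crit r 5 := fun r hr hr0 =>
      all_crit hK (by decide) hp (r := fun j => L (j + 2)) (n := 4) (nb_mono (nb_drop hnb) (by omega)) le_rfl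
        (by rw [hA _ (by omega)]; decide) (fun j hj => hgf _ (by omega) (by omega)) a67
        (hnb.2 5 (by omega)).symm hg7 hr hr0
    -- the two commutators
    have hcL2 : K.adj (L 3) (c • L 2) := adj_fix (hcf 3 le_rfl (by omega)) a23
    have hr1 : K.NB (cons (L 0) (cons (L 1) (cons (L 2) (cons (L 3) (cons (c • L 2) fun _ => c • L 1))))) 5 := by
      refine nb_cons (hnb.1 0 (by omega)) (fun _ => hnb.2 0 (by omega)) (nb_cons (hnb.1 1 (by omega))
        (fun _ => hnb.2 1 (by omega)) (nb_cons (hnb.1 2 (by omega)) (fun _ => hc2.symm) (nb_cons hcL2 (fun _ => ?_)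
        (nb_cons (K.smul c (K.symm (hnb.1 1 (by omega)))) (fun h => absurd h (by omega))
          ⟨fun i hi => absurd hi (Nat.not_lt_zero i), fun i hi => absurd hi (by omega)⟩))))
      exact fun e => hnb.2 1 (by omega) (smul_left_cancel c (e.symm.trans (hcf 3 le_rfl (by omega)).symm))
    have hc1 := hall _ hr1 hL0
    have hext1 : K.adj (c • L 1) (c • L 0) := K.smul c (K.symm (hnb.1 0 (by omega)))
    have hne1 : c • L 0 ≠ c • L 2 := fun e => hnb.2 0 (by omega) (smul_left_cancel c e)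
    have hrv1 := fwd hK (by decide) hb3 hc1 (y := c • L 0) (by simpa using hext1) (by simpa using hne1)
    have han : a ∉ K.ZB (L 1) := fun h => haQ (by
      have := ZB_end hK hb3 (hLe 0 (by decide) (by omega)) (x := a) (by simpa using h)
      simpa using this)
    have hcn : c ∉ K.ZB (L 7) := fun h => hcQ (by
      have := ZB_end hK hb3 (hLo 3 (by decide) (by omega)) (x := c) (by simpa using h)
      simpa using this)
    have C1 : Cfg K 5 (cons (L 0) (cons (L 1) (cons (L 2) (cons (L 3) (cons (c • L 2) fun _ => c • L 1))))) (c • L 0)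
        a (c * a * c⁻¹) :=
      { below := hK, odd := by decide, three := hb3, crit := hc1, adjy := by simpa using hext1
        ne := by simpa using hne1, hz := ha, hzQ := mover_of hK hb3 hu hc1 ha han
        hz' := conj_mem_ZA c ha
        hz'Q := by
          have := mover_of hK hb3 hu hrv1 (x := c * a * c⁻¹) (by rw [rv_zero]; exact conj_mem_ZA c ha) (by
            rw [rv_pos _ _ _ le_rfl]
            intro h
            have h2 := conj_mem_ZB c⁻¹ (show c * a * c⁻¹ ∈ K.ZB (c • L 1) from by simpa using h)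
            rw [inv_smul_smul, show c⁻¹ * (c * a * c⁻¹) * c⁻¹⁻¹ = a by group] at h2
            exact han h2)
          simpa [rv_pos] using this }
    have haL6 : K.adj (L 5) (a • L 6) := adj_fix (hafix 5 le_rfl) a56
    have hr2 : K.NB (cons (L 8) (cons (L 7) (cons (L 6) (cons (L 5) (cons (a • L 6) fun _ => a • L 7))))) 5 := by
      refine nb_cons (K.symm (hnb.1 7 (by omega))) (fun _ => (hnb.2 6 (by omega)).symm)
        (nb_cons (K.symm a67) (fun _ => (hnb.2 5 (by omega)).symm) (nb_cons (K.symm a56) (fun _ => ha6.symm)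
          (nb_cons haL6 (fun _ => ?_) (nb_cons (K.smul a a67) (fun h => absurd h (by omega))
            ⟨fun i hi => absurd hi (Nat.not_lt_zero i), fun i hi => absurd hi (by omega)⟩))))
      exact fun e => hnb.2 5 (by omega) (smul_left_cancel a ((hafix 5 le_rfl).trans e))
    have hA8 : K.isA (L 8) := (hA 8 (by omega)).2 (by decide)
    have hc2' := hall _ hr2 hA8
    have hext2 : K.adj (a • L 7) (a • L 8) := K.smul a (hnb.1 7 (by omega))
    have hne2 : a • L 8 ≠ a • L 6 := fun e => hnb.2 6 (by omega) (smul_left_cancel a e.symm)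
    have hrv2 := fwd hK (by decide) hb3 hc2' (y := a • L 8) (by simpa using hext2) (by simpa using hne2)
    have C2 : Cfg K 5 (cons (L 8) (cons (L 7) (cons (L 6) (cons (L 5) (cons (a • L 6) fun _ => a • L 7))))) (a • L 8)
        c (a * c * a⁻¹) :=
      { below := hK, odd := by decide, three := hb3, crit := hc2', adjy := by simpa using hext2
        ne := by simpa using hne2, hz := hc, hzQ := mover_of hK hb3 hu hc2' hc hcn
        hz' := conj_mem_ZA a hc
        hz'Q := by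
          have := mover_of hK hb3 hu hrv2 (x := a * c * a⁻¹) (by rw [rv_zero]; exact conj_mem_ZA a hc) (by
            rw [rv_pos _ _ _ le_rfl]
            intro h
            have h2 := conj_mem_ZB a⁻¹ (show a * c * a⁻¹ ∈ K.ZB (a • L 7) from by simpa using h)
            rw [inv_smul_smul, show a⁻¹ * (a * c * a⁻¹) * a⁻¹⁻¹ = c by group] at h2
            exact hcn h2)
          simpa [rv_pos] using this }
    have d1 : a * (c * a * c⁻¹ * a * (c * a * c⁻¹)⁻¹) ∈ K.ZB (L 3) :=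
      (even_ZB3 hK (by decide) le_rfl hu hg C1).1
    have d2 : c * (a * c * a⁻¹ * c * (a * c * a⁻¹)⁻¹) ∈ K.ZB (L 5) :=
      (even_ZB3 hK (by decide) le_rfl hu hg C2).1
    have hai : a⁻¹ = a := ZA_inv ha
    have hci : c⁻¹ = c := ZA_inv hc
    have e : c * (a * c * a⁻¹ * c * (a * c * a⁻¹)⁻¹) = c * (a * (c * a * c⁻¹ * a * (c * a * c⁻¹)⁻¹)) * c⁻¹ := by
      simp only [mul_inv_rev, inv_inv, hai, hci, mul_assoc]
      rw [show c * c = 1 from ZA_sq hc]
      simp
    rw [e, conj_ZB_of_fix (hcf 3 le_rfl (by omega)) d1] at d2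
    exact C1.ne_one (ZB_inter (K.symm a34) (hnb.1 4 (by omega)) (hnb.2 3 (by omega)) d1 d2)
  · obtain ⟨z, z', C⟩ := exists_cfg hK hb hb3 hp hy hne
    obtain ⟨h3, hl⟩ := even_ZB3 hK hb hb5 hu hg C
    obtain ⟨L, ⟨hnb, hL0, -, hLo⟩, hpre, -⟩ := exists_line hK hb hb3 C.crit C.adjy C.ne b
    have hc5 := hLo 5 (by decide) (by omega)
    obtain ⟨g, hgA, hgQ, hgfix, hgmove⟩ := crit_elem hK hc5
    simp only [show 5 + b - b = 5 by omega] at hgQ hgmove
    simp only [show 5 + b - (b - 1) = 6 by omega] at hgmove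
    simp only [Nat.sub_zero] at hgA
    have hg5 : g • L 5 = L 5 := by
      have := hgfix b le_rfl
      rwa [show 5 + b - b = 5 by omega] at this
    have hgc : g * (z * (z' * z * z'⁻¹)) = z * (z' * z * z'⁻¹) * g := by
      refine comm_walk hK (p := fun i => L (5 + b - i)) (n := 6) (walk_mono hc5.1 (by omega)) hc5.2.1 (by omega)
        (by simpa using hgA) ?_
      rw [show L (5 + b - 6) = L (b - 1) by congr 1; omega, hpre _ (by omega)]
      exact hl
    have h45 : K.adj (L 5) (L 4) := K.symm (hnb.1 4 (by omega))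
    have h43 : K.adj (L 4) (L 3) := K.symm (hnb.1 3 (by omega))
    have hB5 : ¬ K.isA (L 5) := by
      rw [isA_of hnb.1 hL0 (by omega)]
      decide
    have h3' : z * (z' * z * z'⁻¹) ∈ K.ZB (L 3) := by rw [hpre 3 (by omega)]; exact h3
    have h4' : z * (z' * z * z'⁻¹) ∈ K.ZA (g • L 4) := by
      have := conj_mem_ZA g (ZB_le_ZA h43 h3')
      rwa [hgc, mul_inv_cancel_right] at this
    exact C.ne_one (ZB_inter h43 (K.symm h45) (hnb.2 3 (by omega)) h3'
      (ZA_inter hB5 h45 (adj_fix hg5 h45) (hgmove (L 4) h45 (hnb.2 4 (by omega))).symm (ZB_le_ZA h43 h3') h4'))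

theorem no_good_long (hK : K.Below b) (hb : Odd b) (hb5 : 5 ≤ b) (hu : K.Uni) (hg : K.Good) {p : ℕ → V}
    (hp : K.Crit p b) : False := by
  have hb3 : 3 ≤ b := by omega
  obtain ⟨k, hk⟩ := hb
  have hbo : Odd b := ⟨k, hk⟩
  obtain ⟨y, hy, hne⟩ := K.other (p b) (p (b - 1)) (adj_last hp.1 (by omega))
  obtain ⟨o, ho⟩ : ∃ o, b = o + 3 := ⟨b - 3, by omega⟩
  obtain ⟨L, ⟨hnb, hL0, hLe, hLo⟩, -, -⟩ := exists_line hK hbo hb3 hp hy hne b
  have hoe : Even o := ⟨k - 1, by omega⟩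
  have hP := hLe o hoe (by omega)
  have hy' : K.adj (L (o + b)) (L (o + b + 1)) := hnb.1 _ (by omega)
  have hne' : L (o + b + 1) ≠ L (o + (b - 1)) := by
    have := hnb.2 (o + (b - 1)) (by omega)
    rw [show o + (b - 1) + 2 = o + b + 1 by omega] at this
    exact this.symm
  obtain ⟨z, z', C⟩ := exists_cfg hK hbo hb3 hP (y := L (o + b + 1)) hy' hne'
  set w := z * (z' * z * z'⁻¹) with hw
  -- the two movers at the vertex `o + 3`
  have hR := hLo (o + 3) ⟨k, by omega⟩ (by omega)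
  obtain ⟨gR, hgR, hgRQ, hgRfix, -⟩ := crit_elem hK hR
  simp only [show o + 3 + b - b = o + 3 by omega, Nat.sub_zero] at hgRQ hgR
  have hgRf : ∀ j, o + 3 ≤ j → j ≤ o + 3 + b → gR • L j = L j := fun j h1 h2 => by
    have := hgRfix (o + 3 + b - j) (by omega)
    rwa [show o + 3 + b - (o + 3 + b - j) = j by omega] at this
  have hLc := hLe 0 ⟨0, rfl⟩ (by omega)
  obtain ⟨gL, hgL, hgLQ, hgLfix, -⟩ := crit_elem hK hLc
  simp only [zero_add, ho] at hgLQ hgL
  have hgLf : ∀ j, j ≤ o + 3 → gL • L j = L j := fun j hj => by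
    have := hgLfix j (by omega)
    rwa [zero_add] at this
  have hgRc : gR * w = w * gR := by
    have c1 : gR * z' = z' * gR := comm_walk hK (p := fun i => L (o + 3 + b - i)) (n := 2)
      (walk_mono hR.1 (by omega)) hR.2.1 (by omega) (by simpa using hgR)
      (show z' ∈ K.ZA (L (o + 3 + b - 2)) by rw [show o + 3 + b - 2 = o + b + 1 by omega]; exact C.hz')
    have hzb : z • L (o + b) = L (o + b) := C.zfix le_rfl
    have c2 : gR * (z * z' * z⁻¹) = z * z' * z⁻¹ * gR := comm_walk hK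
      (p := cons (L (o + 3 + b)) (cons (L (o + 2 + b)) (cons (L (o + b + 1)) (cons (L (o + b))
        fun _ => z • L (o + b + 1))))) (n := 4)
      (walk_cons (by have := K.symm (hnb.1 (o + 2 + b) (by omega))
                     rwa [show o + 2 + b + 1 = o + 3 + b by omega] at this)
        (walk_cons (by have := K.symm (hnb.1 (o + b + 1) (by omega))
                       rwa [show o + b + 1 + 1 = o + 2 + b by omega] at this)
          (walk_cons (K.symm hy') (walk_cons (adj_fix hzb hy') (fun i hi => absurd hi (Nat.not_lt_zero i))))))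
      (by simpa using hR.2.1) (by omega) (by simpa using hgR) (by simpa using conj_mem_ZA z C.hz')
    rw [hw, C.eq', ← mul_assoc, c1, mul_assoc, c2, ← mul_assoc]
  have hgLc : gL * w = w * gL := by
    have hwalk : ∀ n ≤ o + 1, K.Walk L n := fun n hn => walk_mono hnb.1 (by omega)
    have c1 : gL * z = z * gL := comm_walk hK (p := L) (n := o) (hwalk o (by omega)) hL0 (by omega)
      (by simpa using hgL) C.hz
    have hz'1 : z' • L (o + 1) = L (o + 1) := C.z'fix le_rfl (by omega)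
    have hw' : K.Walk (snoc L (o + 1) (z' • L o)) (o + 2) := by
      intro i hi
      rcases Nat.lt_or_ge i (o + 1) with h | h
      · rw [snoc_le (by omega), snoc_le (by omega)]; exact hnb.1 i (by omega)
      · obtain rfl : i = o + 1 := by omega
        rw [snoc_le le_rfl, snoc_gt (by omega)]
        exact adj_fix hz'1 (K.symm (hnb.1 o (by omega)))
    have c2 : gL * (z' * z * z'⁻¹) = z' * z * z'⁻¹ * gL := comm_walk hK hw'
      (by rw [snoc_le (by omega)]; exact hL0) (by omega) (by rw [snoc_le (by omega)]; exact hgL)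
      (by rw [snoc_gt (by omega)]; exact C.z''mem)
    rw [hw, ← mul_assoc, c1, mul_assoc, c2, ← mul_assoc]
  have hgL2 : gL ∈ K.Q (L (o + 2)) := hK (o + 2) (by omega) L (walk_mono hnb.1 (by omega)) hL0 hgL
  have a12 : K.adj (L (o + 1)) (L (o + 2)) := hnb.1 _ (by omega)
  have a23 : K.adj (L (o + 2)) (L (o + 3)) := hnb.1 _ (by omega)
  have a34 : K.adj (L (o + 3)) (L (o + 4)) := hnb.1 _ (by omega)
  have n24 : L (o + 2) ≠ L (o + 4) := hnb.2 _ (by omega)
  have n13 : L (o + 1) ≠ L (o + 3) := hnb.2 _ (by omega)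
  have hB3 : ¬ K.isA (L (o + 3)) := by
    rw [isA_of hnb.1 hL0 (by omega)]
    exact Nat.not_even_iff_odd.2 ⟨k, by omega⟩
  set H := centralizer ({w} : Set G) with hH
  have hgRH : gR ∈ H := mem_centralizer_singleton_iff.2 hgRc
  have hgLH : gL ∈ H := mem_centralizer_singleton_iff.2 hgLc
  have htrans : ∀ {u u' : V}, K.adj (L (o + 3)) u → K.adj (L (o + 3)) u' →
      ∃ h ∈ H, h • L (o + 3) = L (o + 3) ∧ h • u = u' := fun {u u'} hu hu' =>
    trans_two H a34 (K.symm a23) n24.symm ⟨hgRf _ le_rfl (by omega), hgRf _ (by omega) (by omega)⟩ hgRQ hgRH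
      ⟨hgLf _ le_rfl, hgLf _ (by omega)⟩ hgLQ hgLH hu hu'
  -- kernel elements fixing both sides
  have hcomm : ∀ q ∈ K.Q (L (o + 3)), q ∈ K.Q (L (o + 2)) → q ∈ K.Q (L (o + 4)) → q ∈ H := by
    intro q hq3 hq2 hq4
    have v1 := C.mod_first hu (g := q) ⟨Q_fix_adj (K.symm a12) hq2, Q_fix hq2⟩
    obtain ⟨h, hhH, hh3, hh⟩ := htrans (K.symm a23) a34
    have hhc := mem_centralizer_singleton_iff.1 hhH
    have a4 : K.adj (L (o + 4)) (h • L (o + 1)) := by
      have := K.smul h (K.symm a12)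
      rwa [hh] at this
    have f2 : (h⁻¹ * q * h) • L (o + 2) = L (o + 2) := by
      rw [mul_smul, mul_smul, hh, Q_fix hq4, inv_smul_eq_iff, hh]
    have f1 : (h⁻¹ * q * h) • L (o + 1) = L (o + 1) := by
      rw [mul_smul, mul_smul, Q_fix_adj a4 hq4, inv_smul_smul]
    have v2 := C.mod_first hu (g := h⁻¹ * q * h) ⟨f1, f2⟩
    have v3 : q * w * q⁻¹ * w⁻¹ ∈ K.ZB (h • L (o + 1)) := by
      have := conj_mem_ZB h v2
      rw [← hw] at this
      convert this using 1
      have hwh : h * w * h⁻¹ = w := by rw [hhc, mul_inv_cancel_right]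
      calc q * w * q⁻¹ * w⁻¹ = q * (h * w * h⁻¹) * q⁻¹ * (h * w * h⁻¹)⁻¹ := by rw [hwh]
        _ = h * (h⁻¹ * q * h * w * (h⁻¹ * q * h)⁻¹ * w⁻¹) * h⁻¹ := by group
    have h3 : q * w * q⁻¹ * w⁻¹ ∈ K.ZB (L (o + 3)) :=
      ZA_inter hB3 (K.symm a23) a34 n24 (ZB_le_ZA (K.symm a12) v1) (ZB_le_ZA a4 v3)
    have := ZB_inter (K.symm a12) a23 n13 v1 h3
    refine mem_centralizer_singleton_iff.2 ?_
    rw [mul_inv_eq_one, mul_inv_eq_iff_eq_mul] at this
    exact this
  obtain ⟨q1, hq1, hq12, hq1iff⟩ := good_at hg C.B1 C.adj10 C.adj1' C.adj12 C.move0.symm C.ne02 C.ne'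
  have hq1H : q1 ∈ H := mem_centralizer_singleton_iff.2 (C.parity1 hu hq1 hq1iff)
  have hq1T : q1 ∈ TE (L (o + 2)) (L (o + 1)) := ⟨Q_fix_adj a12 hq1, Q_fix hq1⟩
  by_cases hall : ∀ q ∈ K.Q (L (o + 3)), q ∈ K.Q (L (o + 2)) → q ∈ K.Q (L (o + 4))
  · have hQ : K.Q (L (o + 2)) ≤ H := fun q hq => by
      by_cases hq3 : q ∈ K.Q (L (o + 3))
      · exact hcomm q hq3 hq (hall q hq3 hq)
      · have h2 : q * gL ∈ K.Q (L (o + 3)) := K.two _ _ (K.symm a23) q (T_comm (Q_le_T a23 hq)) hq3 gL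
          ⟨hgLf _ le_rfl, hgLf _ (by omega)⟩ hgLQ
        have h3 := mul_mem (hcomm _ h2 (mul_mem hq hgL2) (hall _ h2 (mul_mem hq hgL2))) (inv_mem hgLH)
        rwa [mul_inv_cancel_right] at h3
    have hT := le_of_gen (K.symm a12) hQ hq1T hq12 hq1H
    refine C.notmem (inv2_T C.B1 C.adj12 ⟨C.T12, C.sq, fun g hg => ?_⟩)
    exact mem_centralizer_singleton_iff.1 (hT (T_comm hg))
  · push Not at hall
    obtain ⟨q, hq3, hq2, hq4⟩ := hall
    obtain ⟨t, ht, ht2, ht4, hnb3⟩ := K.third (L (o + 3)) (L (o + 2)) (L (o + 4)) (K.symm a23) a34 n24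
    obtain ⟨r, hr, s, hs3, hsr, hs⟩ : ∃ r, K.adj (L (o + 3)) r ∧ ∃ s ∈ K.Q (L (o + 3)), s ∉ K.Q r ∧
        ∀ u, K.adj (L (o + 3)) u → u ≠ r → s ∈ K.Q u := by
      by_cases hqt : q ∈ K.Q t
      · refine ⟨_, a34, q, hq3, hq4, fun u hu' hne => ?_⟩
        rcases hnb3 u hu' with rfl | rfl | rfl
        exacts [hq2, absurd rfl hne, hqt]
      obtain ⟨q0, hq0, hq02, hq0iff⟩ := good_at hg hB3 a34 ht (K.symm a23) ht4.symm n24.symm ht2
      by_cases h04 : q0 ∈ K.Q (L (o + 4))
      · refine ⟨_, K.symm a23, q0, hq0, hq02, fun u hu' hne => ?_⟩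
        rcases hnb3 u hu' with rfl | rfl | rfl
        exacts [absurd rfl hne, h04, hq0iff.1 h04]
      · have h0t : q0 ∉ K.Q t := fun h => h04 (hq0iff.2 h)
        refine ⟨_, K.symm a23, q * q0, mul_mem hq3 hq0, fun h => hq02 ((mul_mem_cancel_left hq2).1 h),
          fun u hu' hne => ?_⟩
        rcases hnb3 u hu' with rfl | rfl | rfl
        exacts [absurd rfl hne, K.two _ _ (K.symm a34) q (T_comm (Q_le_T a34 hq3)) hq4 q0
          (T_comm (Q_le_T a34 hq0)) h04, K.two _ _ (K.symm ht) q (T_comm (Q_le_T ht hq3)) hqt q0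
          (T_comm (Q_le_T ht hq0)) h0t]
    have move : ∀ {h : G}, h • L (o + 3) = L (o + 3) → ∀ u, K.adj (L (o + 3)) u → u ≠ h • r →
        h * s * h⁻¹ ∈ K.Q u := fun {h} hh u hu' hne => by
      have := conj_mem_Q h (hs (h⁻¹ • u) (adj_fix (inv_fix hh) hu') fun e => hne (by rw [← e, smul_inv_smul]))
      rwa [smul_inv_smul] at this
    obtain ⟨h1, h1H, h1f, h1r⟩ := htrans hr ht
    have hsH : s ∈ H := by
      have := hcomm _ (conj_Q_of_fix h1f hs3) (move h1f _ (K.symm a23) (by rw [h1r]; exact ht2.symm))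
        (move h1f _ a34 (by rw [h1r]; exact ht4.symm))
      have h := mul_mem (mul_mem (inv_mem h1H) this) h1H
      rwa [show h1⁻¹ * (h1 * s * h1⁻¹) * h1 = s by group] at h
    obtain ⟨h2, h2H, h2f, h2r⟩ := htrans hr (K.symm a23)
    have hs2 : h2 * s * h2⁻¹ ∈ H := mul_mem (mul_mem h2H hsH) (inv_mem h2H)
    have hs2Q : h2 * s * h2⁻¹ ∉ K.Q (L (o + 2)) := fun h => hsr (by
      rw [← h2r] at h
      exact (conj_mem_Q_iff h2).1 h)
    have hs2T : h2 * s * h2⁻¹ ∈ TE (L (o + 2)) (L (o + 3)) :=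
      T_comm (Q_le_T (K.symm a23) (conj_Q_of_fix h2f hs3))
    refine C.ne_one (closure_elem (K := K) w {L (o + 2), L (o + 3)} ⟨_, Or.inl rfl⟩ ?_ ?_)
    · rintro v (rfl | rfl)
      · exact C.T12.2
      · exact mul_fix (C.zfix (j := 3) (by omega)) (mul_fix (mul_fix (C.z'fix (j := 3) (by omega) (by omega))
          (C.zfix (j := 3) (by omega))) (inv_fix (C.z'fix (j := 3) (by omega) (by omega))))
    · rintro v (rfl | rfl) u hu'
      · obtain ⟨g, hgH, hg2, hgu⟩ := trans_two H (K.symm a12) a23 n13 hq1T hq12 hq1H hs2T hs2Q hs2 hu' a23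
        exact ⟨g, mem_centralizer_singleton_iff.1 hgH, Or.inl hg2, Or.inr hgu⟩
      · obtain ⟨g, hgH, hg3, hgu⟩ := htrans hu' (K.symm a23)
        exact ⟨g, mem_centralizer_singleton_iff.1 hgH, Or.inr hg3, Or.inl hgu⟩

end Gold

end Cfsg.Agent.Lib.GoldAmalgam
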