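import Cfsg.Agent.Lib.GoldAmalgam.Walk

/-!
An odd critical distance: lines, modules of order four and the basic commutator.
-/

set_option autoImplicit false

namespace Cfsg.Agent.Lib.GoldAmalgam

open Subgroup MulAction
open Cfsg.Agent.Lib.S3Amalgam (inv2 TE QV)

variable {G : Type*} [Group G] {V : Type*} [MulAction G V]

namespace Gold

variable (K : Gold G V)

/-- The reversed walk from a new last vertex. -/
def rv (p : ℕ → V) (b : ℕ) (y : V) : ℕ → V := fun i => snoc p b y (b + 1 - i)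

/-- A line: every walk of length `b` along it is critical from its end of type `A`. -/
def Line (b : ℕ) (L : ℕ → V) (N : ℕ) : Prop :=
  K.NB L N ∧ K.isA (L 0) ∧ (∀ j, Even j → j + b ≤ N → K.Crit (fun i => L (j + i)) b) ∧
    ∀ j, Odd j → j + b ≤ N → K.Crit (fun i => L (j + b - i)) b

/-- The centre of a stabiliser of type `B` has one involution. -/
def Uni : Prop := ∀ v, ¬ K.isA v → ∀ x ∈ K.ZB v, ∀ y ∈ K.ZB v, x ≠ 1 → y ≠ 1 → x = y

/-- Some kernel element has odd weight. -/
def Good : Prop := ∃ v a a' c, ∃ q ∈ K.Q v, ¬ K.isA v ∧ K.adj v a ∧ K.adj v a' ∧ K.adj v c ∧ a ≠ a' ∧ a ≠ c ∧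
  a' ≠ c ∧ q ∉ K.Q c ∧ (q ∈ K.Q a ↔ q ∈ K.Q a')

variable {K}

theorem rv_zero (p : ℕ → V) (b : ℕ) (y : V) : rv p b y 0 = y := snoc_gt (by omega)

theorem rv_pos (p : ℕ → V) (b : ℕ) (y : V) {i : ℕ} (hi : 1 ≤ i) : rv p b y i = p (b + 1 - i) :=
  snoc_le (by omega)

theorem not_A_end {b : ℕ} (hb : Odd b) {p : ℕ → V} (hp : K.Crit p b) : ¬ K.isA (p b) := fun h =>
  Nat.not_even_iff_odd.2 hb ((isA_of hp.1 hp.2.1 le_rfl).1 h)

theorem adj_last {b : ℕ} {p : ℕ → V} (hp : K.Walk p b) (hb : 1 ≤ b) : K.adj (p b) (p (b - 1)) := by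
  have := hp (b - 1) (by omega)
  rw [show b - 1 + 1 = b by omega] at this
  exact K.symm this

theorem all_crit {b : ℕ} (hK : K.Below b) (hb : Odd b) {p : ℕ → V} (hp : K.Crit p b) {r : ℕ → V} {n : ℕ}
    (hr : K.NB r n) (hn : b - 1 ≤ n) (hA : K.isA (r n)) {g : G} (hg : ∀ j ≤ n, g • r j = r j) {y : V}
    (hy : K.adj (r n) y) (hne : y ≠ r (n - 1)) (hgy : g • y ≠ y) {q : ℕ → V} (hq : K.NB q b)
    (hq0 : K.isA (q 0)) : K.Crit q b := by
  have hnb := crit_nb hK hp
  have hb1 := crit_pos hp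
  obtain ⟨z, -, -, hzfix, hzmove⟩ := crit_elem hK hp
  obtain ⟨yb, hyb, hybne⟩ := K.other (p b) (p (b - 1)) (adj_last hp.1 hb1)
  obtain ⟨h, hh⟩ := paths_conj b (fun i hi1 hib v => by
    by_cases hv : K.isA v ↔ Even i
    · exact mover_suffix hr hg hy hne hgy hi1 (by omega) (iff_of_true hA hv.symm)
    · exact mover_suffix hnb hzfix hyb hybne (hzmove yb hyb hybne) hi1 (by omega)
        (iff_of_false (not_A_end hb hp) fun h => hv h.symm)) b le_rfl p q hnb hq (iff_of_true hp.2.1 hq0)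
  exact crit_congr (crit_smul hp h) hh

/-- The extensions of a critical walk are critical backwards. -/
theorem fwd {b : ℕ} (hK : K.Below b) (hb : Odd b) (hb3 : 3 ≤ b) {p : ℕ → V} (hp : K.Crit p b) {y : V}
    (hy : K.adj (p b) y) (hne : y ≠ p (b - 1)) : K.Crit (rv p b y) b := by
  have hA : K.isA (p 0) := hp.2.1
  have hnb := crit_nb hK hp
  have hB : ¬ K.isA (p b) := not_A_end hb hp
  have hyA : K.isA y := bip_B hy hB
  have hnb2 : K.NB (snoc p b y) (b + 1) := nb_snoc hy (fun _ => hne.symm) hnb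
  have hrv : K.NB (rv p b y) b := nb_mono (nb_rev hnb2) (by omega)
  have hrvA : K.isA (rv p b y 0) := by rw [rv_zero]; exact hyA
  by_contra hc
  have hQ1 : K.ZA y ≤ K.Q (p 1) := by
    by_contra h
    refine hc ⟨hrv.1, hrvA, ?_⟩
    rw [rv_zero, rv_pos p b y (by omega : 1 ≤ b), show b + 1 - b = 1 by omega]
    exact h
  have h10 : K.adj (p 1) (p 0) := K.symm (hp.1 0 (by omega))
  obtain ⟨z, hz, -, hzfix, hzmove⟩ := crit_elem hK hp
  by_cases hQ0 : K.ZA y ≤ K.Q (p 0)
  · obtain ⟨u, hu, hune⟩ := K.other y (p b) (K.symm hy)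
    obtain ⟨c, hc1, hc2⟩ := ZB_ne_one (bip_A hu hyA)
    have hcy := ZB_le_ZA hu hc1
    have hcz : c * z = z * c := Q_comm_ZA (hQ0 hcy) hz
    have hcz' : c ∈ K.ZA (z • y) := by
      have := conj_mem_ZA z hcy
      rwa [← hcz, mul_inv_cancel_right] at this
    exact hc2 (ZB_inter hu (K.symm hy) hune hc1
      (ZA_inter hB hy (adj_fix (hzfix b le_rfl) hy) (Ne.symm (hzmove y hy hne)) hcy hcz'))
  · obtain ⟨v, hv, hvQ⟩ := SetLike.not_le_iff_exists.1 hQ0
    have hvfix : ∀ j ≤ b, v • p j = p j := fun j hj => by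
      rcases Nat.eq_zero_or_pos j with rfl | hj1
      · exact Q_fix_adj h10 (hQ1 hv)
      · have := fix_below hK (n := b + 1 - j) (walk_mono hrv.1 (by omega)) hrvA (by omega)
          (show v ∈ K.ZA (rv p b y 0) by rw [rv_zero]; exact hv)
        rwa [rv_pos p b y (by omega), show b + 1 - (b + 1 - j) = j by omega] at this
    obtain ⟨u, hu, hu1⟩ := K.other (p 0) (p 1) (K.symm h10)
    have hmove := K.move (p 0) (p 1) u (K.symm h10) hu hu1.symm v ⟨hvfix 0 (by omega), hvfix 1 (by omega)⟩ hvQ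
    refine hc (all_crit hK hb hp (r := fun i => p (b - 1 - i)) (n := b - 1) (nb_rev (nb_mono hnb (by omega)))
      le_rfl (by simpa using hA) (g := v) (fun j _ => hvfix _ (by omega)) (y := u) (by simpa using hu)
      (by simpa [show b - 1 - (b - 1 - 1) = 1 by omega] using hu1) hmove hrv hrvA)

/-- Every critical walk can be shifted backwards. -/
theorem back {b : ℕ} (hK : K.Below b) (hb : Odd b) (hb3 : 3 ≤ b) {p : ℕ → V} (hp : K.Crit p b) :
    ∃ w y, K.adj (p 0) w ∧ w ≠ p 1 ∧ K.adj w y ∧ y ≠ p 0 ∧ K.Crit (cons y (cons w p)) b := by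
  by_contra! hno
  have hA : K.isA (p 0) := hp.2.1
  have hnb := crit_nb hK hp
  obtain ⟨n, hn⟩ : ∃ n, b = n + 2 := ⟨b - 2, by omega⟩
  subst hn
  have h01 : K.adj (p 0) (p 1) := hp.1 0 (by omega)
  have h12 : K.adj (p 1) (p 2) := hp.1 1 (by omega)
  obtain ⟨z, hz, hzQ, hzfix, -⟩ := crit_elem hK hp
  have hlast : K.adj (p (n + 1)) (p (n + 2)) := hp.1 (n + 1) (by omega)
  obtain ⟨yy, hyy, hyyne⟩ := K.other (p (n + 2)) (p (n + 1)) (K.symm hlast)
  have hyyA : K.isA yy := bip_B hyy (not_A_end hb hp)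
  have hrvc := fwd hK hb hb3 hp hyy (by simpa using hyyne)
  obtain ⟨z', hz', hz'Q, hz'fix, hz'move⟩ := crit_elem hK hrvc
  rw [rv_zero] at hz'
  rw [rv_pos _ _ _ (by omega), show n + 2 + 1 - (n + 2) = 1 by omega] at hz'Q hz'move
  rw [rv_pos _ _ _ (by omega : 1 ≤ n + 2 - 1), show n + 2 + 1 - (n + 2 - 1) = 2 by omega] at hz'move
  have hz'1 : z' • p 1 = p 1 := by
    have := hz'fix (n + 2) le_rfl
    rwa [rv_pos _ _ _ (by omega), show n + 2 + 1 - (n + 2) = 1 by omega] at this
  have hz'2 : z' • p 2 = p 2 := by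
    have := hz'fix (n + 1) (by omega)
    rwa [rv_pos _ _ _ (by omega), show n + 2 + 1 - (n + 1) = 2 by omega] at this
  let S := {y : V // ∃ w, K.adj (p 0) w ∧ K.adj w y}
  set W := ⨆ y : S, K.ZA y.1 with hW
  have hle : ∀ {w y}, K.adj (p 0) w → K.adj w y → K.ZA y ≤ W := fun {w y} hw hy =>
    le_iSup (fun y : S => K.ZA y.1) ⟨y, w, hw, hy⟩
  have hWQ : W ≤ K.Q (p 0) := iSup_le fun y x hx => by
    obtain ⟨w, hw, hy⟩ := y.2
    have := hK 2 (by omega) (cons y.1 (cons w p))
      (walk_cons (K.symm hy) (walk_cons (K.symm hw) (fun i hi => absurd hi (Nat.not_lt_zero i))))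
      (bip_B hy (bip_A hw hA)) (by simpa using hx)
    simpa using this
  have h0N : ∀ g : G, g • p 0 = p 0 → g ∈ normalizer (W : Set G) := by
    have key : ∀ g : G, g • p 0 = p 0 → ∀ x ∈ W, g * x * g⁻¹ ∈ W := fun g hg x hx => by
      have hle' : W ≤ W.comap (MulAut.conj g).toMonoidHom := iSup_le fun y z hz => by
        obtain ⟨w, hw, hy⟩ := y.2
        exact hle (adj_fix hg hw) (K.smul g hy) (conj_mem_ZA g hz)
      exact hle' hx
    intro g hg
    refine mem_normalizer_iff.2 fun x => ⟨key g hg x, fun hx => ?_⟩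
    have := key g⁻¹ (inv_fix hg) _ hx
    rwa [show g⁻¹ * (g * x * g⁻¹) * g⁻¹⁻¹ = x by group] at this
  have h1' : K.adj (p 1) (z' • p 0) := adj_fix hz'1 (K.symm h01)
  have hzW : z ∈ W := hle h01 (K.symm h01) hz
  have hzW' : z' * z * z'⁻¹ ∈ W := hle h01 h1' (conj_mem_ZA z' hz)
  have key : ∀ x ∈ W, z' * x * z'⁻¹ ∈ W := by
    intro x hx
    have hle' : W ≤ W.comap (MulAut.conj z').toMonoidHom := iSup_le fun y x hx => by
      show z' * x * z'⁻¹ ∈ W
      obtain ⟨w, hw, hy⟩ := y.2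
      by_cases hw1 : w = p 1
      · subst hw1
        exact hle hw (adj_fix hz'1 hy) (conj_mem_ZA z' hx)
      by_cases hy0 : y.1 = p 0
      · exact hle h01 h1' (conj_mem_ZA z' (hy0 ▸ hx))
      have hyA : K.isA y.1 := bip_B hy (bip_A hw hA)
      have hwalk : ∀ m ≤ n + 2, K.Walk (cons y.1 (cons w p)) (m + 2) := fun m hm =>
        walk_cons (K.symm hy) (walk_cons (K.symm hw) (walk_mono hp.1 hm))
      have hQn : x ∈ K.Q (p n) := by
        by_contra h
        refine hno w y.1 hw hw1 hy hy0 ⟨hwalk n (by omega), hyA, fun h' => h ?_⟩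
        simpa using h' hx
      have hxfix : ∀ j ≤ n + 1, x • p j = p j := fun j hj => by
        rcases Nat.lt_or_ge j (n + 1) with h | h
        · have := fix_below hK (hwalk j (by omega)) hyA (by omega) hx
          simpa using this
        · obtain rfl : j = n + 1 := by omega
          exact Q_fix_adj (hp.1 n (by omega)) hQn
      have hq : K.NB (cons y.1 (cons w p)) (n + 2) :=
        nb_cons (p := cons w p) (K.symm hy) (fun _ => hy0) (nb_cons (K.symm hw) (fun _ => hw1) (nb_mono hnb (by omega)))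
      have hAn : K.isA (p (n + 1)) := bip_B (K.symm hlast) (not_A_end hb hp)
      have hQn1 : x ∈ K.Q (p (n + 1)) := by
        by_contra h
        have hne : p (n + 2) ≠ p n := (hnb.2 n le_rfl).symm
        exact hno w y.1 hw hw1 hy hy0 (all_crit hK hb hp (nb_mono hnb (by omega : n + 1 ≤ n + 2)) (by omega) hAn
          hxfix hlast (by simpa using hne)
          (K.move _ _ _ (K.symm (hp.1 n (by omega))) hlast hne.symm x ⟨hxfix _ le_rfl, hxfix _ (by omega)⟩ h)
          hq hyA)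
      have hxb : x ∈ TE (p (n + 2)) (p (n + 1)) := ⟨Q_fix_adj hlast hQn1, Q_fix hQn1⟩
      have main : ∀ x'' : G, x'' ∈ K.Q (p (n + 2)) → (∀ j ≤ n + 1, x'' • p j = p j) → z' * x'' = x'' * z' := by
        intro x'' hx'' hfix''
        have hyy2 : x'' • yy = yy := Q_fix_adj hyy hx''
        refine (Q_comm_ZA ?_ hz').symm
        by_contra h
        obtain ⟨u, hu, hune⟩ := K.other yy (p (n + 2)) (K.symm hyy)
        have hnb2 : K.NB (snoc p (n + 2) yy) (n + 2 + 1) :=
          nb_snoc hyy (fun _ => by simpa using hyyne.symm) hnb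
        refine hno w y.1 hw hw1 hy hy0 (all_crit hK hb hp (nb_drop (k := 2) hnb2) (by omega)
          (g := x'') (y := u) ?_ ?_ ?_ ?_ ?_ hq hyA)
        · simp only [show n + 2 + 1 - 2 + 2 = n + 3 by omega]
          rwa [snoc_gt (by omega)]
        · intro j hj
          rcases Nat.lt_or_ge (j + 2) (n + 3) with h' | h'
          · skip
            rw [snoc_le (by omega)]
            rcases Nat.lt_or_ge (j + 2) (n + 2) with h'' | h''
            · exact hfix'' _ (by omega)
            · rw [show j + 2 = n + 2 by omega]; exact Q_fix hx''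
          · skip
            rw [snoc_gt (by omega)]; exact hyy2
        · simp only [show n + 2 + 1 - 2 + 2 = n + 3 by omega]
          rwa [snoc_gt (by omega)]
        · simp only [show n + 2 + 1 - 2 - 1 + 2 = n + 2 by omega]
          rwa [snoc_le le_rfl]
        · exact K.move _ _ _ (K.symm hyy) hu hune.symm x'' ⟨hyy2, Q_fix hx''⟩ h
      by_cases hxQb : x ∈ K.Q (p (n + 2))
      · rw [main x hxQb hxfix, mul_inv_cancel_right]
        exact hle hw hy hx
      · have h2 : x * z ∈ K.Q (p (n + 2)) :=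
          K.two _ _ (K.symm hlast) x hxb hxQb z ⟨hzfix _ le_rfl, hzfix _ (by omega)⟩ hzQ
        have h3 := main (x * z) h2 fun j hj => mul_fix (hxfix j hj) (hzfix j (by omega))
        have e : z' * x * z'⁻¹ = x * z * (z' * z * z'⁻¹) := by
          calc z' * x * z'⁻¹ = z' * x * (z * z) * z'⁻¹ := by rw [ZA_sq hz, mul_one]
            _ = z' * (x * z) * (z * z'⁻¹) := by group
            _ = (x * z) * z' * (z * z'⁻¹) := by rw [h3]
            _ = x * z * (z' * z * z'⁻¹) := by group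
        rw [e]
        exact mul_mem (mul_mem (hle hw hy hx) hzW) hzW'
    exact hle' hx
  have hz'N : z' ∈ normalizer (W : Set G) := mem_normalizer_iff.2 fun x => ⟨key x, fun hx => by
    have := key _ hx
    rwa [show z' * (z' * x * z'⁻¹) * z'⁻¹ = (z' * z') * x * (z' * z')⁻¹ by group, ZA_sq hz', one_mul, inv_one,
      mul_one] at this⟩
  obtain ⟨t, ht, htQ⟩ := exists_T_not_Q (K.symm h01)
  obtain ⟨c, hc, hc1⟩ := ZB_ne_one (bip_A h01 hA)
  refine hc1 (closure' (K := K) (W : Set G) {p 0, p 1} ⟨p 0, Or.inl rfl⟩ ?_ ?_ c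
    (hle h01 (K.symm h01) (ZB_le_ZA h01 hc)))
  · rintro x hx v (rfl | rfl)
    · exact Q_fix (hWQ hx)
    · exact Q_fix_adj h01 (hWQ hx)
  · rintro v (rfl | rfl) u hu
    · obtain ⟨g, hg, hgu⟩ := K.trans _ u (p 1) hu h01
      exact ⟨g, fun x hx => (mem_normalizer_iff.1 (h0N g hg) x).1 hx, Or.inl hg, Or.inr hgu⟩
    · obtain ⟨h, hH, hh1, hhu⟩ := trans_two (normalizer (W : Set G)) h12 (K.symm h01) (hnb.2 0 (by omega)).symm
        ⟨hz'1, hz'2⟩ hz'Q hz'N ht htQ (h0N t ht.2) hu (K.symm h01)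
      exact ⟨h, fun x hx => (mem_normalizer_iff.1 hH x).1 hx, Or.inr hh1, Or.inl hhu⟩

theorem exists_line {b : ℕ} (hK : K.Below b) (hb : Odd b) (hb3 : 3 ≤ b) {p : ℕ → V} (hp : K.Crit p b) {y : V}
    (hy : K.adj (p b) y) (hne : y ≠ p (b - 1)) :
    ∀ m, ∃ L, K.Line b L (b + 1 + 2 * m) ∧ (∀ i ≤ b, L i = p i) ∧ L (b + 1) = y := by
  intro m
  induction m with
  | zero =>
    refine ⟨snoc p b y, ⟨nb_snoc hy (fun _ => hne.symm) (crit_nb hK hp), ?_, ?_, ?_⟩,
      fun i hi => snoc_le hi, snoc_gt (by omega)⟩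
    · rw [snoc_le (by omega)]; exact hp.2.1
    · intro j hj hjb
      obtain rfl : j = 0 := by
        obtain ⟨k, hk⟩ := hj
        omega
      exact crit_congr hp fun i hi => by simp only [zero_add]; rw [snoc_le hi]
    · intro j hj hjb
      obtain rfl : j = 1 := by
        obtain ⟨k, hk⟩ := hj
        omega
      exact crit_congr (fwd hK hb hb3 hp hy hne) fun i hi => by simp only [rv, Nat.add_comm 1 b]
  | succ m ih =>
    obtain ⟨L, ⟨hnb, hL0, hLe, hLo⟩, hpre, hy'⟩ := ih
    obtain ⟨k, hk⟩ := hb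
    obtain ⟨N, hN⟩ : ∃ N, N = b + 1 + 2 * m := ⟨_, rfl⟩
    rw [← hN] at hnb hLe hLo
    have hr := hLo (N - b) ⟨m, by omega⟩ (by omega)
    obtain ⟨w, y2, hw, hw1, hy2, hy20, hq⟩ := back hK ⟨k, hk⟩ hb3 hr
    simp only [show N - b + b - 0 = N by omega] at hw hy20
    simp only [show N - b + b - 1 = N - 1 by omega] at hw1
    set q := cons y2 (cons w fun i => L (N - b + b - i)) with hq_def
    have hnb' : K.NB (snoc (snoc L N w) (N + 1) y2) (N + 2) := by
      refine nb_snoc ?_ (fun _ => ?_) (nb_snoc hw (fun _ => hw1.symm) hnb)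
      · rw [snoc_gt (by omega)]; exact hy2
      · rw [show N + 1 - 1 = N by omega, snoc_le le_rfl]; exact hy20.symm
    set L' := snoc (snoc L N w) (N + 1) y2 with hL'
    have hold : ∀ i ≤ N, L' i = L i := fun i hi => by rw [hL', snoc_le (by omega), snoc_le hi]
    have hq' : ∀ i ≤ b, q i = L' (N + 2 - i) := by
      intro i hi
      match i with
      | 0 => rw [hL', snoc_gt (by omega)]; rfl
      | 1 => rw [hL', snoc_le (by omega), snoc_gt (by omega)]; rfl
      | i + 2 =>
        rw [hold _ (by omega)]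
        show L (N - b + b - i) = L (N + 2 - (i + 2))
        congr 1; omega
    refine ⟨L', ⟨by rw [show b + 1 + 2 * (m + 1) = N + 2 by omega]; exact hnb', ?_, ?_, ?_⟩,
      fun i hi => by rw [hold i (by omega)]; exact hpre i hi, by rw [hold _ (by omega)]; exact hy'⟩
    · rw [hold 0 (by omega)]; exact hL0
    · intro j hj hjb
      obtain ⟨l, hl⟩ := hj
      rcases Nat.lt_or_ge (j + b) (N + 1) with h | h
      · exact crit_congr (hLe j ⟨l, hl⟩ (by omega)) fun i hi => (hold _ (by omega)).symm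
      · have hjN : j + b = N + 1 := by omega
        have e1 : q b = L (N + 2 - b) := by
          rw [hq' b le_rfl, hold _ (by omega)]
        have e2 : q (b - 1) = L (N + 3 - b) := by
          rw [hq' _ (by omega), hold _ (by omega)]
          congr 1; omega
        have hadj : K.adj (q b) (L j) := by
          rw [e1, show N + 2 - b = j + 1 by omega]
          exact K.symm (hnb.1 j (by omega))
        have hne' : L j ≠ q (b - 1) := by
          rw [e2, show N + 3 - b = j + 2 by omega]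
          exact hnb.2 j (by omega)
        refine crit_congr (fwd hK ⟨k, hk⟩ hb3 hq hadj hne') fun i hi => ?_
        rcases Nat.eq_zero_or_pos i with rfl | hi1
        · rw [rv_zero, add_zero, hold _ (by omega)]
        · rw [rv_pos _ _ _ (by omega), hq' _ (by omega)]
          congr 1; omega
    · intro j hj hjb
      obtain ⟨l, hl⟩ := hj
      rcases Nat.lt_or_ge (j + b) (N + 1) with h | h
      · exact crit_congr (hLo j ⟨l, hl⟩ (by omega)) fun i hi => (hold _ (by omega)).symm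
      · refine crit_congr hq fun i hi => ?_
        rw [hq' i hi]
        congr 1; omega

end Gold

end Cfsg.Agent.Lib.GoldAmalgam
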