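import Cfsg.Agent.Lib.GoldAmalgam.Basic

/-!
Walks, the critical distance and the transitivity on walks.
-/

set_option autoImplicit false

namespace Cfsg.Agent.Lib.GoldAmalgam

open Subgroup MulAction
open Cfsg.Agent.Lib.S3Amalgam (inv2 TE QV)

variable {G : Type*} [Group G] {V : Type*} [MulAction G V]

/-- Prepend a vertex. -/
def cons (w : V) (p : ℕ → V) : ℕ → V
  | 0 => w
  | i + 1 => p i

@[simp] theorem cons_zero (w : V) (p : ℕ → V) : cons w p 0 = w := rfl
@[simp] theorem cons_succ (w : V) (p : ℕ → V) (i : ℕ) : cons w p (i + 1) = p i := rfl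

/-- Replace the values after `n` by `y`. -/
def snoc (p : ℕ → V) (n : ℕ) (y : V) : ℕ → V := fun i => if i ≤ n then p i else y

theorem snoc_le {p : ℕ → V} {n : ℕ} {y : V} {i : ℕ} (h : i ≤ n) : snoc p n y i = p i := if_pos h

theorem snoc_gt {p : ℕ → V} {n : ℕ} {y : V} {i : ℕ} (h : n < i) : snoc p n y i = y := if_neg (by omega)

namespace Gold

variable (K : Gold G V)

/-- Walks. -/
def Walk (p : ℕ → V) (n : ℕ) : Prop := ∀ i < n, K.adj (p i) (p (i + 1))

/-- Walks without turning back. -/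
def NB (p : ℕ → V) (n : ℕ) : Prop := K.Walk p n ∧ ∀ i, i + 2 ≤ n → p i ≠ p (i + 2)

/-- Below the critical distance. -/
def Below (b : ℕ) : Prop := ∀ n < b, ∀ p : ℕ → V, K.Walk p n → K.isA (p 0) → K.ZA (p 0) ≤ K.Q (p n)

/-- A critical walk. -/
def Crit (p : ℕ → V) (b : ℕ) : Prop := K.Walk p b ∧ K.isA (p 0) ∧ ¬ K.ZA (p 0) ≤ K.Q (p b)

variable {K}

theorem walk_cons {w : V} {p : ℕ → V} {n : ℕ} (h : K.adj w (p 0)) (hp : K.Walk p n) :
    K.Walk (cons w p) (n + 1) := by
  intro i hi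
  match i with
  | 0 => exact h
  | i + 1 => exact hp i (by omega)

theorem walk_mono {p : ℕ → V} {n m : ℕ} (hp : K.Walk p n) (h : m ≤ n) : K.Walk p m := fun i hi => hp i (by omega)

theorem walk_rev {p : ℕ → V} {n : ℕ} (hp : K.Walk p n) : K.Walk (fun i => p (n - i)) n := by
  intro i hi
  have := hp (n - (i + 1)) (by omega)
  rw [show n - (i + 1) + 1 = n - i by omega] at this
  exact K.symm this

theorem walk_drop {p : ℕ → V} {n k : ℕ} (hp : K.Walk p n) : K.Walk (fun i => p (i + k)) (n - k) := by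
  intro i hi
  have := hp (i + k) (by omega)
  rw [show i + k + 1 = i + 1 + k by omega] at this
  exact this

theorem walk_smul {p : ℕ → V} {n : ℕ} (hp : K.Walk p n) (g : G) : K.Walk (fun i => g • p i) n :=
  fun i hi => K.smul g (hp i hi)

theorem nb_rev {p : ℕ → V} {n : ℕ} (hp : K.NB p n) : K.NB (fun i => p (n - i)) n :=
  ⟨walk_rev hp.1, fun i hi e => hp.2 (n - (i + 2)) (by omega) (by
    rw [show n - (i + 2) + 2 = n - i by omega]; exact e.symm)⟩

theorem nb_drop {p : ℕ → V} {n k : ℕ} (hp : K.NB p n) : K.NB (fun i => p (i + k)) (n - k) :=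
  ⟨walk_drop hp.1, fun i hi e => hp.2 (i + k) (by omega) (by rw [show i + k + 2 = i + 2 + k by omega]; exact e)⟩

theorem nb_mono {p : ℕ → V} {n m : ℕ} (hp : K.NB p n) (h : m ≤ n) : K.NB p m :=
  ⟨walk_mono hp.1 h, fun i hi => hp.2 i (by omega)⟩

theorem nb_cons {w : V} {p : ℕ → V} {n : ℕ} (h : K.adj w (p 0)) (hne : 1 ≤ n → w ≠ p 1) (hp : K.NB p n) :
    K.NB (cons w p) (n + 1) := by
  refine ⟨walk_cons h hp.1, fun i hi => ?_⟩
  match i with
  | 0 => exact hne (by omega)
  | i + 1 => exact hp.2 i (by omega)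

theorem nb_snoc {p : ℕ → V} {n : ℕ} {y : V} (h : K.adj (p n) y) (hne : 1 ≤ n → p (n - 1) ≠ y) (hp : K.NB p n) :
    K.NB (snoc p n y) (n + 1) := by
  refine ⟨fun i hi => ?_, fun i hi => ?_⟩
  · rcases Nat.lt_or_ge i n with h1 | h1
    · rw [snoc_le (by omega), snoc_le (by omega)]; exact hp.1 i h1
    · obtain rfl : i = n := by omega
      rw [snoc_le le_rfl, snoc_gt (by omega)]; exact h
  · rcases Nat.lt_or_ge (i + 1) n with h1 | h1
    · rw [snoc_le (by omega), snoc_le (by omega)]; exact hp.2 i (by omega)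
    · rw [snoc_le (by omega), snoc_gt (by omega)]
      have := hne (by omega)
      rwa [show n - 1 = i by omega] at this

theorem isA_iff {p : ℕ → V} {n : ℕ} (hp : K.Walk p n) : ∀ i ≤ n, (K.isA (p i) ↔ (Even i ↔ K.isA (p 0))) := by
  intro i
  induction i with
  | zero => intro _; simp
  | succ i ih =>
    intro hi
    rw [K.bip (hp i (by omega)), ih (by omega), Nat.even_add_one]
    tauto

theorem isA_of {p : ℕ → V} {n : ℕ} (hp : K.Walk p n) (h0 : K.isA (p 0)) {i : ℕ} (hi : i ≤ n) :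
    K.isA (p i) ↔ Even i := by rw [isA_iff hp i hi]; tauto

theorem fix_below {b : ℕ} (hK : K.Below b) {p : ℕ → V} {n : ℕ} (hp : K.Walk p n) (h0 : K.isA (p 0))
    (hn : n ≤ b) {z : G} (hz : z ∈ K.ZA (p 0)) : z • p n = p n := by
  match n with
  | 0 => exact Q_fix (ZA_le_Q hz)
  | n + 1 => exact Q_fix_adj (hp n (by omega)) (hK n (by omega) p (walk_mono hp (by omega)) h0 hz)

theorem crit_pos {b : ℕ} {p : ℕ → V} (hp : K.Crit p b) : 1 ≤ b := by
  by_contra h
  obtain rfl : b = 0 := by omega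
  exact hp.2.2 fun x hx => ZA_le_Q hx

theorem crit_nb {b : ℕ} (hK : K.Below b) {p : ℕ → V} (hp : K.Crit p b) : K.NB p b := by
  refine ⟨hp.1, fun i hi e => hp.2.2 ?_⟩
  let q : ℕ → V := fun j => if j ≤ i then p j else p (j + 2)
  have hq : K.Walk q (b - 2) := by
    intro j hj
    simp only [q]
    rcases Nat.lt_trichotomy j i with h | h | h
    · rw [if_pos (show j ≤ i by omega), if_pos (show j + 1 ≤ i by omega)]; exact hp.1 j (by omega)
    · subst h
      rw [if_pos le_rfl, if_neg (show ¬ j + 1 ≤ j by omega), e, show j + 1 + 2 = j + 2 + 1 by omega]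
      exact hp.1 (j + 2) (by omega)
    · rw [if_neg (show ¬ j ≤ i by omega), if_neg (show ¬ j + 1 ≤ i by omega),
        show j + 1 + 2 = j + 2 + 1 by omega]
      exact hp.1 (j + 2) (by omega)
  have h0 : q 0 = p 0 := by simp [q]
  have hb : q (b - 2) = p b := by
    simp only [q]
    split_ifs with h
    · obtain rfl : i = b - 2 := by omega
      rw [e, show b - 2 + 2 = b by omega]
    · rw [show b - 2 + 2 = b by omega]
  have := hK (b - 2) (by omega) q hq (by rw [h0]; exact hp.2.1)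
  rwa [h0, hb] at this

theorem crit_smul {b : ℕ} {p : ℕ → V} (hp : K.Crit p b) (g : G) : K.Crit (fun i => g • p i) b := by
  refine ⟨walk_smul hp.1 g, (K.isA_smul g _).2 hp.2.1, fun h => hp.2.2 fun z hz => ?_⟩
  exact (conj_mem_Q_iff g).1 (h (conj_mem_ZA g hz))

theorem crit_congr {b : ℕ} {p q : ℕ → V} (hp : K.Crit p b) (h : ∀ i ≤ b, p i = q i) : K.Crit q b := by
  refine ⟨fun i hi => ?_, ?_, ?_⟩
  · rw [← h i (by omega), ← h (i + 1) (by omega)]; exact hp.1 i hi
  · rw [← h 0 (by omega)]; exact hp.2.1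
  · rw [← h 0 (by omega), ← h b le_rfl]; exact hp.2.2

theorem crit_elem {b : ℕ} (hK : K.Below b) {p : ℕ → V} (hp : K.Crit p b) :
    ∃ z ∈ K.ZA (p 0), z ∉ K.Q (p b) ∧ (∀ j ≤ b, z • p j = p j) ∧
      ∀ y, K.adj (p b) y → y ≠ p (b - 1) → z • y ≠ y := by
  obtain ⟨z, hz, hzQ⟩ := SetLike.not_le_iff_exists.1 hp.2.2
  have hfix : ∀ j ≤ b, z • p j = p j := fun j hj => fix_below hK (walk_mono hp.1 hj) hp.2.1 hj hz
  refine ⟨z, hz, hzQ, hfix, fun y hy hne => ?_⟩
  have h1 := crit_pos hp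
  have hadj := hp.1 (b - 1) (by omega)
  rw [show b - 1 + 1 = b by omega] at hadj
  exact K.move (p b) (p (b - 1)) y (K.symm hadj) hy hne.symm z ⟨hfix b le_rfl, hfix (b - 1) (by omega)⟩ hzQ

theorem same_type {v w : V} (h : K.isA v ↔ K.isA w) : ∃ g : G, g • v = w := by
  by_cases hv : K.isA v
  · exact K.atrans v w hv (h.1 hv)
  · exact btrans hv fun hw => hv (h.2 hw)

/-- Walks of equal length and equal type are conjugate if there are movers. -/
theorem paths_conj (n : ℕ)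
    (hmov : ∀ i, 1 ≤ i → i < n → ∀ v : V, ∃ r : ℕ → V, K.NB r i ∧ (K.isA (r 0) ↔ K.isA v) ∧
      ∃ g : G, (∀ j ≤ i, g • r j = r j) ∧ ∃ y, K.adj (r i) y ∧ y ≠ r (i - 1) ∧ g • y ≠ y) :
    ∀ i ≤ n, ∀ p q : ℕ → V, K.NB p i → K.NB q i → (K.isA (p 0) ↔ K.isA (q 0)) →
      ∃ g : G, ∀ j ≤ i, g • p j = q j := by
  intro i
  induction i with
  | zero =>
    intro _ p q _ _ h
    obtain ⟨g, hg⟩ := same_type h
    exact ⟨g, fun j hj => by obtain rfl : j = 0 := (by omega); exact hg⟩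
  | succ i ih =>
    intro hi p q hp hq hA
    obtain ⟨g, hg⟩ := ih (by omega) p q (nb_mono hp (by omega)) (nb_mono hq (by omega)) hA
    have a1 : K.adj (q i) (g • p (i + 1)) := by
      rw [← hg i le_rfl]
      exact K.smul g (hp.1 i (by omega))
    have a2 : K.adj (q i) (q (i + 1)) := hq.1 i (by omega)
    rcases Nat.eq_zero_or_pos i with rfl | hi1
    · obtain ⟨k, hk0, hk1⟩ := K.trans (q 0) _ _ a1 a2
      refine ⟨k * g, fun j hj => ?_⟩
      rcases (show j = 0 ∨ j = 1 by omega) with rfl | rfl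
      · rw [mul_smul, hg 0 le_rfl, hk0]
      · rw [mul_smul, hk1]
    by_cases heq : g • p (i + 1) = q (i + 1)
    · refine ⟨g, fun j hj => ?_⟩
      rcases Nat.lt_or_ge j (i + 1) with h | h
      · exact hg j (by omega)
      · obtain rfl : j = i + 1 := by omega
        exact heq
    obtain ⟨r, hr, hrA, m, hm, y, hy, hyne, hmy⟩ := hmov i hi1 (by omega) (q 0)
    obtain ⟨k, hk⟩ := ih (by omega) r q hr (nb_mono hq (by omega)) hrA
    set m' := k * m * k⁻¹ with hm'
    have hfix : ∀ j ≤ i, m' • q j = q j := fun j hj => by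
      rw [← hk j hj]
      exact conj_fix k (hm j hj)
    have aprev : K.adj (q i) (q (i - 1)) := by
      have := hq.1 (i - 1) (by omega)
      rw [show i - 1 + 1 = i by omega] at this
      exact K.symm this
    have hnQ : m' ∉ K.Q (q i) := fun h => hmy (by
      rw [hm', ← hk i le_rfl] at h
      exact Q_fix_adj hy ((conj_mem_Q_iff k).1 h))
    have hne1 : q (i - 1) ≠ g • p (i + 1) := by
      rw [← hg (i - 1) (by omega)]
      intro e
      have := hp.2 (i - 1) (by omega)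
      rw [show i - 1 + 2 = i + 1 by omega] at this
      exact this (smul_left_cancel g e)
    have hne2 : q (i - 1) ≠ q (i + 1) := by
      have := hq.2 (i - 1) (by omega)
      rwa [show i - 1 + 2 = i + 1 by omega] at this
    have hswap : m' • g • p (i + 1) = q (i + 1) :=
      swap aprev a1 a2 hne1 hne2 heq ⟨hfix i le_rfl, hfix (i - 1) (by omega)⟩ hnQ
    refine ⟨m' * g, fun j hj => ?_⟩
    rcases Nat.lt_or_ge j (i + 1) with h | h
    · rw [mul_smul, hg j (by omega), hfix j (by omega)]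
    · obtain rfl : j = i + 1 := by omega
      rw [mul_smul, hswap]

theorem isA_end {p : ℕ → V} {n : ℕ} (hp : K.Walk p n) : K.isA (p n) ↔ (Even n ↔ K.isA (p 0)) :=
  isA_iff hp n le_rfl

/-- A mover at the end of a walk gives movers for all shorter lengths and one of the two types. -/
theorem mover_suffix {p : ℕ → V} {n : ℕ} (hp : K.NB p n) {g : G} (hg : ∀ j ≤ n, g • p j = p j) {y : V}
    (hy : K.adj (p n) y) (hne : y ≠ p (n - 1)) (hgy : g • y ≠ y) {i : ℕ} (hi1 : 1 ≤ i) (hin : i ≤ n) {v : V}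
    (hv : K.isA (p n) ↔ (Even i ↔ K.isA v)) :
    ∃ r : ℕ → V, K.NB r i ∧ (K.isA (r 0) ↔ K.isA v) ∧
      ∃ g : G, (∀ j ≤ i, g • r j = r j) ∧ ∃ y, K.adj (r i) y ∧ y ≠ r (i - 1) ∧ g • y ≠ y := by
  refine ⟨fun j => p (j + (n - i)), nb_mono (nb_drop hp) (by omega), ?_, g, fun j hj => hg (j + (n - i)) (by omega),
    y, ?_, ?_, hgy⟩
  · have h1 := isA_end (nb_mono (nb_drop (k := n - i) hp) (show i ≤ n - (n - i) by omega)).1
    simp only [zero_add, show i + (n - i) = n by omega] at h1 ⊢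
    by_cases hE : Even i <;> simp only [hE, true_iff, false_iff] at h1 hv <;> tauto
  · show K.adj (p (i + (n - i))) y
    rwa [show i + (n - i) = n by omega]
  · show y ≠ p (i - 1 + (n - i))
    rwa [show i - 1 + (n - i) = n - 1 by omega]

theorem exists_crit {v : V} (hv : ¬ K.isA v) : ∃ b, K.Below b ∧ ∃ p, K.Crit p b := by
  classical
  obtain ⟨a, ha⟩ := K.exists_adj v
  have hA := bip_B ha hv
  let P : ℕ → Prop := fun b => ∃ p, K.Crit p b
  have hex : ∃ b, P b := by
    by_contra! hno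
    obtain ⟨z, hz, hz1⟩ := ZB_ne_one hv
    refine hz1 (K.faithful z fun w => ?_)
    let U : Set V := {w | ∃ (p : ℕ → V) (n : ℕ), K.Walk p n ∧ p n = a ∧ p 0 = w}
    have hU : ∀ w, w ∈ U := by
      refine K.conn U ⟨a, fun _ => a, 0, fun i hi => absurd hi (Nat.not_lt_zero i), rfl, rfl⟩ ?_
      rintro w ⟨p, n, hp, hn, rfl⟩ u hu
      exact ⟨cons u p, n + 1, walk_cons (K.symm hu) hp, hn, rfl⟩
    obtain ⟨p, n, hp, hn, h0⟩ := hU w
    have h2 : K.ZA a ≤ K.Q w := by
      by_contra h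
      refine hno n ⟨fun i => p (n - i), walk_rev hp, ?_, ?_⟩
      · simpa [hn] using hA
      · simpa [hn, h0] using h
    exact Q_fix (h2 (ZB_le_ZA (K.symm ha) hz))
  refine ⟨Nat.find hex, fun n hn p hp h0 => ?_, Nat.find_spec hex⟩
  by_contra h
  exact Nat.find_min hex hn ⟨p, hp, h0, h⟩

end Gold

end Cfsg.Agent.Lib.GoldAmalgam
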